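import Cfsg.Agent.SuzRankThree5.Graph
import Cfsg.Agent.CosetEnum.Suz.G2.Iso
import Cfsg.Agent.ChevField.RingEquiv

/-! The recognition of the Suzuki group from its rank 3 action on 1782 points. -/

set_option autoImplicit false

namespace CfsgLib.SuzRankThree5

open CfsgLib.CosetEnum CfsgLib.CosetEnum.Suz

variable {Ω : Type*} [Fintype Ω] [DecidableEq Ω]

theorem stab_six_iso {K : Type} [Field K] [Fintype K] (hK : Fintype.card K = 4) :
    Nonempty (↥(sub 6) ≃* ↥(Cfsg.Lie.chevG2.group K)) := by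
  obtain ⟨i⟩ := G2.six_iso
  obtain ⟨j⟩ := CfsgLib.ChevField.nonempty_groupEquiv Cfsg.Lie.chevG2
    (FiniteField.ringEquivOfCardEq (K := G2.F4) (K' := K) (by rw [G2.F4.card_eq, hK]))
  exact ⟨i.trans j⟩

/-- the stabiliser as a group of permutations -/
def stabEquiv (G : Subgroup (Equiv.Perm Ω)) (a : Ω) :
    ↥(pointStab G [a]) ≃* ↥(MulAction.stabilizer G a) where
  toFun g := ⟨⟨g, (mem_pointStab.1 g.2).1⟩, (mem_pointStab.1 g.2).2 a List.mem_cons_self⟩
  invFun g := ⟨g.1, mem_pointStab.2 ⟨g.1.2, fun p hp => by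
    rw [List.mem_singleton.1 hp]; exact g.2⟩⟩
  left_inv _ := rfl
  right_inv _ := rfl
  map_mul' _ _ := rfl

theorem orbit_stab (G : Subgroup (Equiv.Perm Ω)) (a x : Ω) :
    MulAction.orbit (pointStab G [a]) x = MulAction.orbit (MulAction.stabilizer G a) x := by
  ext y
  constructor
  · rintro ⟨g, rfl⟩; exact ⟨stabEquiv G a g, rfl⟩
  · rintro ⟨g, rfl⟩; exact ⟨(stabEquiv G a).symm g, rfl⟩

theorem isoSuz (hΩ : Fintype.card Ω = 1782) (G : Subgroup (Equiv.Perm Ω))
    [MulAction.IsPretransitive G Ω] (a : Ω) (K : Type) [Field K] [Fintype K]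
    (hK : Fintype.card K = 4)
    (e : MulAction.stabilizer G a ≃* Cfsg.Lie.chevG2.group K) (b c : Ω)
    (hb : (MulAction.orbit (MulAction.stabilizer G a) b).ncard = 416)
    (hc : (MulAction.orbit (MulAction.stabilizer G a) c).ncard = 1365) :
    Cfsg.Spor.IsoSuz G := by
  obtain ⟨i⟩ := stab_six_iso hK
  let th0 : ↥(pointStab G [a]) →* P :=
    (pi.comp (sub 6).subtype).comp (((stabEquiv G a).trans e).trans i.symm).toMonoidHom
  have hr0 : th0.range = MM := by
    rw [MonoidHom.range_comp, MonoidHom.range_eq_top.2 (MulEquiv.surjective _),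
      ← MonoidHom.range_eq_map, MonoidHom.range_comp, Subgroup.range_subtype, MM, cl_six]
  have hi0 : Function.Injective th0 :=
    (pi_injective.comp Subtype.val_injective).comp (MulEquiv.injective _)
  have tr : ∀ x y : Ω, ∃ g ∈ G, g x = y := fun x y => by
    obtain ⟨g, hg⟩ := MulAction.exists_smul_eq G x y
    exact ⟨g, g.2, hg⟩
  let S0 : Setting Ω := ⟨G, tr, hΩ, a, th0, hi0, hr0, b, c,
    by rw [orbit_stab]; exact hb, by rw [orbit_stab]; exact hc⟩
  obtain ⟨m, hm, hmb⟩ := class_one (S0.img_le S0.b) (by rw [S0.card_img, S0.card_stab_b])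
  let th1 : ↥(pointStab G [a]) →* P := (MulAut.conj m⁻¹).toMonoidHom.comp th0
  have hr1 : th1.range = MM := by
    rw [MonoidHom.range_comp, hr0]
    exact cj_mem_eq (inv_mem hm)
  have hi1 : Function.Injective th1 := (MulAut.conj m⁻¹).injective.comp hi0
  let S : Setting Ω := ⟨G, tr, hΩ, a, th1, hi1, hr1, b, c,
    by rw [orbit_stab]; exact hb, by rw [orbit_stab]; exact hc⟩
  have hS : S.img S.b = JJ := by
    have h : S.img b = cj m⁻¹ (S0.img b) :=
      (Subgroup.map_map ((pointStab G [b, a]).subgroupOf (pointStab G [a]))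
        (MulAut.conj m⁻¹).toMonoidHom th0).symm
    rw [show S.b = b from rfl, h, show S0.img b = cj m JJ from hmb, cj_inv_cancel]
  obtain ⟨f⟩ := S.iso_range hS
  exact ⟨f.trans (MonoidHom.ofInjective pi_injective).symm⟩

end CfsgLib.SuzRankThree5
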