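import Cfsg.Agent.SuzRankThree5.ChecksOne

/-! Generated: kernel checks of `edgeOK`. -/

set_option autoImplicit false
set_option maxRecDepth 100000

namespace CfsgLib.SuzRankThree5

open CfsgLib.CosetEnum

theorem edge_ok6720 : allFrom edgeOK 6720 840 = true := by decide +kernel

theorem edge_ok7560 : allFrom edgeOK 7560 840 = true := by decide +kernel

theorem edge_ok8400 : allFrom edgeOK 8400 840 = true := by decide +kernel

theorem edge_ok9240 : allFrom edgeOK 9240 840 = true := by decide +kernel

end CfsgLib.SuzRankThree5
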