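import Cfsg.Agent.SuzRankThree5.ChecksOne

/-! Generated: kernel checks of `killOK`. -/

set_option autoImplicit false
set_option maxRecDepth 100000

namespace CfsgLib.SuzRankThree5

open CfsgLib.CosetEnum

theorem kill_ok0 : allFrom killOK 0 504 = true := by decide +kernel

theorem kill_ok504 : allFrom killOK 504 504 = true := by decide +kernel

theorem kill_ok1008 : allFrom killOK 1008 504 = true := by decide +kernel

theorem kill_ok1512 : allFrom killOK 1512 504 = true := by decide +kernel

end CfsgLib.SuzRankThree5
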