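import Cfsg.Agent.SuzRankThree5.ChecksOne

/-! Generated: kernel checks of `killOK`. -/

set_option autoImplicit false
set_option maxRecDepth 100000

namespace CfsgLib.SuzRankThree5

open CfsgLib.CosetEnum

theorem kill_ok2016 : allFrom killOK 2016 504 = true := by decide +kernel

theorem kill_ok2520 : allFrom killOK 2520 504 = true := by decide +kernel

theorem kill_ok3024 : allFrom killOK 3024 504 = true := by decide +kernel

theorem kill_ok3528 : allFrom killOK 3528 504 = true := by decide +kernel

end CfsgLib.SuzRankThree5
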