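import Cfsg.Agent.SuzRankThree5.ChecksOne

/-! Generated: kernel checks of `killOK`. -/

set_option autoImplicit false
set_option maxRecDepth 100000

namespace CfsgLib.SuzRankThree5

open CfsgLib.CosetEnum

theorem kill_ok4032 : allFrom killOK 4032 504 = true := by decide +kernel

theorem kill_ok4536 : allFrom killOK 4536 504 = true := by decide +kernel

theorem kill_ok5040 : allFrom killOK 5040 504 = true := by decide +kernel

theorem kill_ok5544 : allFrom killOK 5544 504 = true := by decide +kernel

end CfsgLib.SuzRankThree5
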