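import Cfsg.Agent.SuzRankThree5.ChecksOne

/-! Generated: kernel checks of `parOK`. -/

set_option autoImplicit false
set_option maxRecDepth 100000

namespace CfsgLib.SuzRankThree5

open CfsgLib.CosetEnum

theorem par_ok0 : allFrom parOK 0 1008 = true := by decide +kernel

theorem par_ok1008 : allFrom parOK 1008 1008 = true := by decide +kernel

end CfsgLib.SuzRankThree5
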