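import Cfsg.Agent.SuzRankThree5.EdgesA
import Cfsg.Agent.SuzRankThree5.EdgesB
import Cfsg.Agent.SuzRankThree5.EdgesC
import Cfsg.Agent.SuzRankThree5.ParentsA
import Cfsg.Agent.SuzRankThree5.KillsA
import Cfsg.Agent.SuzRankThree5.KillsB
import Cfsg.Agent.SuzRankThree5.KillsC
import Cfsg.Agent.SuzRankThree5.KillsD
import Cfsg.Agent.SuzRankThree5.KillsE

/-! Generated: the checks of the certificate put together. -/

set_option autoImplicit false
set_option maxRecDepth 100000

namespace CfsgLib.SuzRankThree5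

open CfsgLib.CosetEnum

theorem edge_ok : ∀ j < 10080, edgeOK j = true :=
  RangeChecked.all (RangeChecked.app 840 10080 (RangeChecked.app 840 9240 (RangeChecked.app 840 8400 (RangeChecked.app 840 7560 (RangeChecked.app 840 6720 (RangeChecked.app 840 5880 (RangeChecked.app 840 5040 (RangeChecked.app 840 4200 (RangeChecked.app 840 3360 (RangeChecked.app 840 2520 (RangeChecked.app 840 1680 (RangeChecked.app 840 840 RangeChecked.zero edge_ok0 rfl) edge_ok840 rfl) edge_ok1680 rfl) edge_ok2520 rfl) edge_ok3360 rfl) edge_ok4200 rfl) edge_ok5040 rfl) edge_ok5880 rfl) edge_ok6720 rfl) edge_ok7560 rfl) edge_ok8400 rfl) edge_ok9240 rfl)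

theorem par_ok : ∀ j < 2016, parOK j = true :=
  RangeChecked.all (RangeChecked.app 1008 2016 (RangeChecked.app 1008 1008 RangeChecked.zero par_ok0 rfl) par_ok1008 rfl)

theorem kill_ok : ∀ j < 10080, killOK j = true :=
  RangeChecked.all (RangeChecked.app 504 10080 (RangeChecked.app 504 9576 (RangeChecked.app 504 9072 (RangeChecked.app 504 8568 (RangeChecked.app 504 8064 (RangeChecked.app 504 7560 (RangeChecked.app 504 7056 (RangeChecked.app 504 6552 (RangeChecked.app 504 6048 (RangeChecked.app 504 5544 (RangeChecked.app 504 5040 (RangeChecked.app 504 4536 (RangeChecked.app 504 4032 (RangeChecked.app 504 3528 (RangeChecked.app 504 3024 (RangeChecked.app 504 2520 (RangeChecked.app 504 2016 (RangeChecked.app 504 1512 (RangeChecked.app 504 1008 (RangeChecked.app 504 504 RangeChecked.zero kill_ok0 rfl) kill_ok504 rfl) kill_ok1008 rfl) kill_ok1512 rfl) kill_ok2016 rfl) kill_ok2520 rfl) kill_ok3024 rfl) kill_ok3528 rfl) kill_ok4032 rfl) kill_ok4536 rfl) kill_ok5040 rfl) kill_ok5544 rfl) kill_ok6048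 rfl) kill_ok6552 rfl) kill_ok7056 rfl) kill_ok7560 rfl) kill_ok8064 rfl) kill_ok8568 rfl) kill_ok9072 rfl) kill_ok9576 rfl)

end CfsgLib.SuzRankThree5
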