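import Cfsg.Agent.SuzRankThree5.DataGraph

/-! The checks on the rows of the orbital graph and on the base. -/

set_option autoImplicit false
set_option maxRecDepth 100000

namespace CfsgLib.SuzRankThree5

open CfsgLib.CosetEnum

/-- an entry of a row -/
noncomputable def rowBit (k j : ℕ) : Bool :=
  Nat.beq ((rowBits.getD k 0 >>> j) % 2) 1

/-- the row `k` is that of its point -/
noncomputable def rowOK (k : ℕ) : Bool :=
  let t := rowWords.getD k []
  okW 7 t && Nat.blt (rowPts.getD k 0) 1782 && (runN t (rowPts.getD k 0) == 0) &&
    allBelow (fun j => rowBit k j == (Suz.Tab.labSix (runN t j) == 1)) 1782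

/-- the pattern of a point relative to the first `k` base points -/
noncomputable def patN (k x : ℕ) : ℕ :=
  Nat.rec 0 (fun i r => 4 * r + (cond (Nat.beq x (autBase.getD i 0)) 1 0) +
    (cond (rowBit i x) 2 0)) k

/-- the number of points with the pattern of base point `k` -/
noncomputable def classSize (k : ℕ) : ℕ :=
  let v := patN k (autBase.getD k 0)
  Nat.rec 0 (fun x r => Bool.rec r (r + 1) (Nat.beq (patN k x) v)) 1782

/-- the class of base point `k` is small enough -/
noncomputable def classOK (k : ℕ) : Bool :=
  Nat.beq (classSize k) (autSize.getD k 0) && (rowPts.getD k 0 == autBase.getD k 0) &&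
    Nat.blt (autBase.getD k 0) 1782

/-- position `j` of the sorted list -/
noncomputable def sortOK (j : ℕ) : Bool :=
  let x := slot sortTab 11 j
  Nat.blt (slot rankTab 11 j) 1782 && (slot sortTab 11 (slot rankTab 11 j) == j) &&
    ((j == 0) || Nat.blt (patN 27 (slot sortTab 11 (j - 1))) (patN 27 x))

theorem row_ok : allBelow rowOK 28 = true := by decide +kernel

theorem class_ok : allBelow classOK 27 = true := by decide +kernel

theorem sort_ok : allBelow sortOK 1782 = true := by decide +kernel

theorem prod_sizes : ((List.range 27).map fun k => autSize.getD k 0).prod = 896690995200 := by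
  decide +kernel

theorem row_last : rowPts.getD 27 0 = 1 ∧ rowPts.getD 5 0 = 995 ∧ rowPts.getD 0 0 = 0 := by
  decide +kernel

theorem nbrs_base : allBelow (fun j => !(Suz.Tab.labSix j == 1) ||
    (rowBit 5 j == (Suz.Tab.labFive j == 2))) 1782 = true := by decide +kernel

end CfsgLib.SuzRankThree5
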