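import Cfsg.Agent.SuzRankThree5.Data

/-! The checks on the certificate for the subgroups of index 416, and the small ones. -/

set_option autoImplicit false
set_option maxRecDepth 100000

namespace CfsgLib.SuzRankThree5

open CfsgLib.CosetEnum

/-- letter `x` maps the representative `k` to a representative -/
noncomputable def edgeOK (j : ℕ) : Bool :=
  let e := slot edgeTab 20 j
  let t := Nat.land e 2047
  let v := e >>> 11
  Nat.blt t 2016 && Nat.blt v 189 &&
    eq4 ((j % 5) :: lW (j / 5)) (lW t ++ nuW v)

/-- the representative `k` has a parent or is among the roots -/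
noncomputable def parOK (k : ℕ) : Bool :=
  let e := slot parTab 22 k
  Bool.rec (rootGen.any fun p => p.1 == k)
    (let a := Nat.land (e >>> 1) 2047
     let g := Nat.land (e >>> 12) 3
     let v := e >>> 14
     Nat.blt a k && Nat.blt v 189 && eq4 (wordsNJ.getD g [] ++ lW a) (lW k ++ nuW v))
    (Nat.beq (e % 2) 1)

/-- the normalising word `v` permutes the 5-subgroup -/
noncomputable def nuOK (v : ℕ) : Bool :=
  let e := slot nuConjTab 10 v
  okW 5 (nuW v) &&
    eq4 (nuW v ++ xa ++ (nuW v).reverse) (w25.getD (Nat.land e 31) []) &&
    eq4 (nuW v ++ xb ++ (nuW v).reverse) (w25.getD (e >>> 5) [])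

/-- a root generates J2 -/
noncomputable def rootOK (p : ℕ × List (List ℕ)) : Bool :=
  let l := lW p.1
  let a := l ++ xa ++ l.reverse
  let b := l ++ xb ++ l.reverse
  let g := [sa, sb, a, b, sa.reverse, sb.reverse, a.reverse, b.reverse]
  Nat.blt p.1 2016 && (p.2.length == 5) &&
    allBelow (fun x => okW 5 (flat g (p.2.getD x [])) && eq4 [x] (flat g (p.2.getD x []))) 5

/-- a point is moved to its representative by a normalising word -/
noncomputable def nWordOK (p : ℕ) : Bool :=
  let w := flat wordsN (decW (slot nWordTab 24 p))
  let r := slot destTab 3 p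
  !(Suz.Tab.labSix p == 1) || (Nat.blt r 6 && (runN w (repPts.getD r 0) == p))

/-- the 13-cycle for representative point `r + 1` and representative `k` -/
noncomputable def killOK (j : ℕ) : Bool :=
  let e := slot killTab 31 j
  let t := repWords.getD (j / 2016 + 1) []
  let l := lW (j % 2016)
  let seg := fun s q => t.reverse ++ w27.getD s [] ++ t ++ l ++ w25.getD q [] ++ l.reverse
  cycleOK 13 (seg (Nat.land e 31) (Nat.land (e >>> 5) 31) ++
    Bool.rec (seg (Nat.land (e >>> 10) 31) (Nat.land (e >>> 15) 31)) []
      (Nat.beq (Nat.land (e >>> 10) 31) 31)) (e >>> 20)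

/-- the compositions agree with the lists of elements -/
theorem flat_tables :
    ix27.map (flat [sa, sb, sa.reverse, sb.reverse]) = w27 ∧
      ix25.map (flat [xa, xb, xa.reverse, xb.reverse]) = w25 := by
  decide +kernel

theorem w27_closed : allK (fun v => allK (fun g => w27.any fun u => eq4 (v ++ g) u)
    [sa, sb, sa.reverse, sb.reverse]) w27 = true := by decide +kernel

theorem w25_closed : allK (fun v => allK (fun g => w25.any fun u => eq4 (v ++ g) u)
    [xa, xb, xa.reverse, xb.reverse]) w25 = true := by decide +kernel

theorem w27_exp : allK (fun v => eq4 (v ++ v ++ v) []) w27 = true := by decide +kernel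

theorem w25_exp : allK (fun v => eq4 (v ++ v ++ v ++ v ++ v) []) w25 = true := by decide +kernel

theorem small_ok : (allK (okW 5) w27 && allK (okW 5) w25 && allK (okW 5) [sa, sb, xa, xb] &&
    allK (okW 5) wordsNJ && allK (okW 6) wordsN && allK (okW 6) repWords) = true := by
  decide +kernel

theorem w25_nodup : (w25.map fun v => [47, 72, 76, 593].map (runN v)).Nodup := by decide +kernel

theorem norm_ok : allK (fun n => allK (fun g => w27.any fun u => eq6 (n ++ g ++ n.reverse) u)
    [sa, sb]) (wordsNJ ++ wordsN) = true := by decide +kernel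

theorem rep_ok : allBelow (fun r => runN (repWords.getD r []) (repPts.getD r 0) == 995 &&
    Nat.blt (repPts.getD r 0) 1782) 6 = true := by decide +kernel

theorem lW_zero : lW 0 = [] := by decide +kernel

theorem lW_ok : allBelow (fun k => okW 5 (lW k)) 2016 = true := by decide +kernel

theorem nu_ok : allBelow nuOK 189 = true := by decide +kernel

theorem root_ok : allK rootOK rootGen = true := by decide +kernel

theorem nWord_ok : allBelow nWordOK 1782 = true := by decide +kernel

end CfsgLib.SuzRankThree5
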