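import Cfsg.Agent.SuzRankThree5.Parts

/-! The checks on the certificate for the subgroups of index 1365. -/

set_option autoImplicit false
set_option maxRecDepth 100000

namespace CfsgLib.SuzRankThree5

open CfsgLib.CosetEnum

/-- digits in base 16, less one -/
noncomputable def ix16 (v : ℕ) : List ℕ :=
  Nat.rec (motive := fun _ => ℕ → List ℕ) (fun _ => [])
    (fun _ ih n => Bool.rec ((n % 16 - 1) :: ih (n / 16)) [] (Nat.beq n 0)) 8 v

/-- membership in a list -/
noncomputable def memK (a : ℕ) (l : List ℕ) : Bool :=
  List.rec (motive := fun _ => Bool) false (fun b _ r => Bool.rec r true (Nat.beq a b)) l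

/-- a generator of the 2-subgroup normalises the earlier ones -/
noncomputable def pcOK (i : ℕ) : Bool :=
  let u := wordsU.getD i []
  let e := wordsU.take i
  let c := conjU.getD i []
  let w := witU.getD i (0, [])
  eq6 (u ++ u) [] && (c.length == i) &&
    allBelow (fun j => eq6 (u ++ wordsU.getD j [] ++ u.reverse) (flat e (c.getD j []))) i &&
    allK (fun g => allK (fun x => memK (runN g x) w.2) w.2) e &&
    allK (fun x => Nat.blt x 1782) w.2 && memK w.1 w.2 && !memK (runN u w.1) w.2

/-- the orbit on pairs is closed -/
noncomputable def orbOK (o : List ℕ) : Bool :=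
  allK (fun g => allK (fun x => memK (2048 * runN g (x / 2048) + runN g (x % 2048)) o) o) wordsU &&
    allK (fun x => Nat.blt (x / 2048) 1782 && Nat.blt (x % 2048) 1782) o

/-- two coset representatives are separated -/
noncomputable def sepOK (a b : ℕ) : Bool :=
  let w := (cosetU.getD b []).reverse ++ cosetU.getD a []
  orbsU.any fun o =>
    let x := o.getD 0 0
    !memK (2048 * runN w (x / 2048) + runN w (x % 2048)) o && memK x o

/-- a point is reached from a representative -/
noncomputable def pathOK (p : ℕ) : Bool :=
  let e := slot pathTab 34 p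
  let r := Nat.land e 7
  !(Suz.Tab.labSix p == 2) ||
    (Nat.blt r 6 && (runN (flat wordsU (ix16 (e >>> 3))) p == repU.getD r 0))

/-- a candidate is excluded -/
noncomputable def killTwoOK (j : ℕ) : Bool :=
  let x := moveU.getD (j / 45) [] ++ cosetU.getD (j % 45) []
  let e := killTwo.getD j ([], 0, 0)
  Bool.rec (((e.2.2 == 7) || (e.2.2 == 13)) && cycleOK e.2.2 (flat (x :: wordsU) e.1) e.2.1)
    (Nat.blt e.2.1 badParts.length &&
      let C := badParts.getD e.2.1 partOne
      C.allOK 1 (x :: wordsU) && allBelow (fun m => !(C.count m == 96)) (2 ^ C.parts))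
    (e.1.isEmpty)

theorem words_two_ok : (allK (okW 6) wordsU && allK (okW 6) cosetU && allK (okW 6) moveU &&
    allK (okW 6) wordsExtra) = true := by decide +kernel

theorem lengths_two : wordsU.length = 12 ∧ cosetU.length = 45 ∧ repU.getD 0 0 = 1 ∧
    repU.length = 6 ∧ moveU.length = 5 ∧ killTwo.length = 225 := by decide +kernel

theorem fix_two : allK (fun w => runN w 1 == 1) (wordsU ++ cosetU ++ wordsExtra) = true := by
  decide +kernel

theorem move_ok : allBelow (fun r => runN (moveU.getD r []) (repU.getD (r + 1) 0) == 1 &&
    !(repU.getD (r + 1) 0 == 1) && Nat.blt (repU.getD (r + 1) 0) 1782) 5 = true := by decide +kernel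

theorem pc_ok : allBelow pcOK 12 = true := by decide +kernel

theorem orb_ok : allK orbOK orbsU = true := by decide +kernel

theorem sep_ok : allBelow (fun a => allBelow (fun b => sepOK a b) a) 45 = true := by decide +kernel

theorem path_ok : allBelow pathOK 1782 = true := by decide +kernel

theorem killTwo_ok : allBelow killTwoOK 225 = true := by decide +kernel

theorem partOne_ok : partOne.allOK 1 (wordsU ++ wordsExtra) = true := by decide +kernel

theorem partTwo_ok : partTwo.allOK 2 (wordsU ++ wordsExtra) = true := by decide +kernel

end CfsgLib.SuzRankThree5
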