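import Cfsg.Agent.SuzRankThree5.Conjugates
import Cfsg.Agent.SuzRankThree5.CheckedOne

/-! The subgroups of index 416 in the stabiliser of a point form one class. -/

set_option autoImplicit false
set_option maxRecDepth 100000

namespace CfsgLib.SuzRankThree5

open CfsgLib.CosetEnum CfsgLib.CosetEnum.Suz

/-- the Sylow 3-subgroup used -/
noncomputable def PS : Subgroup P := Subgroup.closure {el sa, el sb}

/-- the Sylow 5-subgroup used -/
noncomputable def PQ : Subgroup P := Subgroup.closure {el xa, el xb}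

theorem ok_lists :
    (∀ v ∈ w27, okW 5 v = true) ∧ (∀ v ∈ w25, okW 5 v = true) ∧
      (okW 5 sa = true ∧ okW 5 sb = true ∧ okW 5 xa = true ∧ okW 5 xb = true) ∧
      (∀ v ∈ wordsNJ, okW 5 v = true) ∧ (∀ v ∈ wordsN, okW 6 v = true) ∧
      (∀ v ∈ repWords, okW 6 v = true) := by
  have h := small_ok
  simp only [Bool.and_eq_true, Model.allK_iff] at h
  obtain ⟨⟨⟨⟨⟨h1, h2⟩, h3⟩, h4⟩, h5⟩, h6⟩ := h
  exact ⟨h1, h2, ⟨h3 _ (by simp), h3 _ (by simp), h3 _ (by simp), h3 _ (by simp)⟩, h4, h5, h6⟩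

theorem ok_getD {m : ℕ} {g : List (List ℕ)} (hg : ∀ v ∈ g, okW m v = true) (i : ℕ) :
    okW m (g.getD i []) = true := by
  rcases lt_or_ge i g.length with hi | hi
  · rw [List.getD_eq_getElem _ _ hi]; exact hg _ (List.getElem_mem hi)
  · rw [List.getD_eq_default _ _ hi]; exact okW_iff.2 (by simp)

theorem ok_flat {m : ℕ} {g : List (List ℕ)} (hg : ∀ v ∈ g, okW m v = true) (ix : List ℕ) :
    okW m (flat g ix) = true := by
  induction ix with
  | nil => exact okW_iff.2 (by simp [flat])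
  | cons i ix ih =>
    rw [flat, List.flatMap_cons]
    exact okW_append.2 ⟨ok_getD hg i, ih⟩

theorem ok_lW {k : ℕ} (hk : k < 2016) : okW 5 (lW k) = true :=
  (Model.allBelow_iff _ _).1 lW_ok k hk

theorem mem_PS {v : List ℕ} (hv : v ∈ w27) : el v ∈ PS := by
  rw [← flat_tables.1, List.mem_map] at hv
  obtain ⟨ix, -, rfl⟩ := hv
  refine el_flat_mem (fun w hw => ?_) ix
  have ha : el sa ∈ PS := Subgroup.subset_closure (Or.inl rfl)
  have hb : el sb ∈ PS := Subgroup.subset_closure (Or.inr rfl)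
  simp only [List.mem_cons, List.not_mem_nil, or_false] at hw
  rcases hw with rfl | rfl | rfl | rfl
  · exact ha
  · exact hb
  · rw [el_reverse (okW_mono ok_lists.2.2.1.1 (by omega : 5 ≤ 7))]; exact inv_mem ha
  · rw [el_reverse (okW_mono ok_lists.2.2.1.2.1 (by omega : 5 ≤ 7))]; exact inv_mem hb

theorem mem_PQ {v : List ℕ} (hv : v ∈ w25) : el v ∈ PQ := by
  rw [← flat_tables.2, List.mem_map] at hv
  obtain ⟨ix, -, rfl⟩ := hv
  refine el_flat_mem (fun w hw => ?_) ix
  have ha : el xa ∈ PQ := Subgroup.subset_closure (Or.inl rfl)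
  have hb : el xb ∈ PQ := Subgroup.subset_closure (Or.inr rfl)
  simp only [List.mem_cons, List.not_mem_nil, or_false] at hw
  rcases hw with rfl | rfl | rfl | rfl
  · exact ha
  · exact hb
  · rw [el_reverse (okW_mono ok_lists.2.2.1.2.2.1 (by omega : 5 ≤ 7))]; exact inv_mem ha
  · rw [el_reverse (okW_mono ok_lists.2.2.1.2.2.2 (by omega : 5 ≤ 7))]; exact inv_mem hb

theorem nil_mem : [] ∈ w27 ∧ [] ∈ w25 := by decide

theorem PS_list : ∀ x ∈ PS, ∃ u ∈ w27, el u = x := by
  obtain ⟨h27, -, ⟨ha, hb, -, -⟩, -⟩ := ok_lists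
  refine closure_eq_list nil_mem.1 (fun v hv g hg => ?_) (okW_mono ha (by omega))
    (okW_mono hb (by omega))
  have h := w27_closed
  rw [Model.allK_iff] at h
  have h' := h v hv
  rw [Model.allK_iff] at h'
  obtain ⟨u, hu, e⟩ := List.any_eq_true.1 (h' g hg)
  refine ⟨u, hu, el_eq_four (okW_append.2 ⟨h27 v hv, ?_⟩) (h27 u hu) e⟩
  simp only [List.mem_cons, List.not_mem_nil, or_false] at hg
  rcases hg with rfl | rfl | rfl | rfl
  exacts [ha, hb, okW_reverse.2 ha, okW_reverse.2 hb]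

theorem PQ_list : ∀ x ∈ PQ, ∃ u ∈ w25, el u = x := by
  obtain ⟨-, h25, ⟨-, -, ha, hb⟩, -⟩ := ok_lists
  refine closure_eq_list nil_mem.2 (fun v hv g hg => ?_) (okW_mono ha (by omega))
    (okW_mono hb (by omega))
  have h := w25_closed
  rw [Model.allK_iff] at h
  have h' := h v hv
  rw [Model.allK_iff] at h'
  obtain ⟨u, hu, e⟩ := List.any_eq_true.1 (h' g hg)
  refine ⟨u, hu, el_eq_four (okW_append.2 ⟨h25 v hv, ?_⟩) (h25 u hu) e⟩
  simp only [List.mem_cons, List.not_mem_nil, or_false] at hg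
  rcases hg with rfl | rfl | rfl | rfl
  exacts [ha, hb, okW_reverse.2 ha, okW_reverse.2 hb]

theorem PS_isPGroup : IsPGroup 3 PS := isPGroup_of_exp fun x hx => by
  obtain ⟨u, hu, rfl⟩ := PS_list x hx
  have h := w27_exp
  rw [Model.allK_iff] at h
  have hok := ok_lists.1 u hu
  have e := el_eq_four (okW_append.2 ⟨okW_append.2 ⟨hok, hok⟩, hok⟩) (okW_iff.2 (by simp)) (h u hu)
  simpa [el_append, el_nil, pow_succ, mul_assoc] using e

theorem PQ_isPGroup : IsPGroup 5 PQ := isPGroup_of_exp fun x hx => by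
  obtain ⟨u, hu, rfl⟩ := PQ_list x hx
  have h := w25_exp
  rw [Model.allK_iff] at h
  have hok := ok_lists.2.1 u hu
  have e := el_eq_four (okW_append.2 ⟨okW_append.2 ⟨okW_append.2 ⟨okW_append.2 ⟨hok, hok⟩, hok⟩,
    hok⟩, hok⟩) (okW_iff.2 (by simp)) (h u hu)
  simpa [el_append, el_nil, pow_succ, mul_assoc] using e

theorem PS_le : PS ≤ JJ := by
  rw [PS, Subgroup.closure_le]
  obtain ⟨-, -, ⟨ha, hb, -, -⟩, -⟩ := ok_lists
  rintro _ (rfl | rfl)
  exacts [el_mem_JJ ha, el_mem_JJ hb]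

theorem PQ_le : PQ ≤ JJ := by
  rw [PQ, Subgroup.closure_le]
  obtain ⟨-, -, ⟨-, -, ha, hb⟩, -⟩ := ok_lists
  rintro _ (rfl | rfl)
  exacts [el_mem_JJ ha, el_mem_JJ hb]

theorem normalizes_PS {n : List ℕ} (hn : n ∈ wordsNJ ++ wordsN) : cj (el n) PS = PS := by
  obtain ⟨h27, -, ⟨ha, hb, -, -⟩, hJ, hN, -⟩ := ok_lists
  have hn6 : okW 6 n = true := by
    rcases List.mem_append.1 hn with h | h
    exacts [okW_mono (hJ n h) (by omega), hN n h]
  have hn7 : okW 7 n = true := okW_mono hn6 (by omega)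
  refine cj_closure_eq ?_
  have h := norm_ok
  rw [Model.allK_iff] at h
  have h' := h n hn
  rw [Model.allK_iff] at h'
  have key : ∀ g ∈ [sa, sb], okW 5 g = true → el n * el g * (el n)⁻¹ ∈ PS := by
    intro g hg hok
    obtain ⟨u, hu, e⟩ := List.any_eq_true.1 (h' g hg)
    rw [← el_reverse hn7, ← el_append, ← el_append,
      el_eq_six (okW_append.2 ⟨okW_append.2 ⟨hn7, okW_mono hok (by omega)⟩, okW_reverse.2 hn7⟩)
        (okW_mono (h27 u hu) (by omega)) e]
    exact mem_PS hu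
  rintro _ (rfl | rfl)
  exacts [key sa (by simp) ha, key sb (by simp) hb]

theorem normalizes_PQ {v : ℕ} (hv : v < 189) :
    el (nuW v) ∈ JJ ∧ okW 5 (nuW v) = true ∧ cj (el (nuW v)) PQ = PQ := by
  obtain ⟨-, h25, ⟨-, -, ha, hb⟩, -⟩ := ok_lists
  have h := (Model.allBelow_iff _ _).1 nu_ok v hv
  simp only [nuOK, Bool.and_eq_true] at h
  obtain ⟨⟨hok, h1⟩, h2⟩ := h
  refine ⟨el_mem_JJ hok, hok, cj_closure_eq ?_⟩
  have h7 : okW 7 (nuW v) = true := okW_mono hok (by omega)
  have key : ∀ (g : List ℕ) (i : ℕ), okW 5 g = true →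
      eq4 (nuW v ++ g ++ (nuW v).reverse) (w25.getD i []) = true →
      el (nuW v) * el g * (el (nuW v))⁻¹ ∈ PQ := by
    intro g i hg e
    rw [← el_reverse h7, ← el_append, ← el_append,
      el_eq_four (okW_append.2 ⟨okW_append.2 ⟨hok, hg⟩, okW_reverse.2 hok⟩) (ok_getD h25 i) e]
    exact el_getD_mem (fun w hw => mem_PQ hw) i
  rintro _ (rfl | rfl)
  exacts [key xa _ ha h1, key xb _ hb h2]

/-- every conjugate of the 5-subgroup in J2 is listed -/
theorem exists_rep {j : P} (hj : j ∈ JJ) : ∃ k < 2016, cj j PQ = cj (el (lW k)) PQ := by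
  have hstep : ∀ x < 5, ∀ k < 2016, ∃ t < 2016,
      cj (el [x]) (cj (el (lW k)) PQ) = cj (el (lW t)) PQ := by
    intro x hx k hk
    have h := edge_ok (5 * k + x) (by omega)
    simp only [edgeOK, Bool.and_eq_true, Nat.blt, Nat.ble_eq] at h
    obtain ⟨⟨ht, hv⟩, e⟩ := h
    rw [show (5 * k + x) % 5 = x by omega, show (5 * k + x) / 5 = k by omega] at e
    obtain ⟨-, hnu, hn⟩ := normalizes_PQ hv
    refine ⟨_, ht, ?_⟩
    have he := el_eq_four (okW_iff.2 (by
      simp only [List.mem_cons, forall_eq_or_imp]; exact ⟨hx, okW_iff.1 (ok_lW hk)⟩))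
      (okW_append.2 ⟨ok_lW ht, hnu⟩) e
    rw [el_append, el_cons] at he
    rw [← cj_mul, el_cons, el_nil, mul_one, he, cj_mul, hn]
  rw [JJ, wordsFive_eq] at hj
  refine Subgroup.closure_induction_left
    (p := fun g _ => ∃ k < 2016, cj g PQ = cj (el (lW k)) PQ) ?_ ?_ ?_ hj
  · exact ⟨0, by omega, by rw [lW_zero, el_nil]⟩
  · rintro _ ⟨w, hw, rfl⟩ y - ⟨k, hk, e⟩
    obtain ⟨x, hx, rfl⟩ := List.mem_map.1 hw
    obtain ⟨t, ht, et⟩ := hstep x (List.mem_range.1 hx) k hk
    exact ⟨t, ht, by rw [cj_mul, e, ← et]; rfl⟩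
  · rintro _ ⟨w, hw, rfl⟩ y - ⟨k, hk, e⟩
    obtain ⟨x, hx, rfl⟩ := List.mem_map.1 hw
    have hx' : x < 5 := List.mem_range.1 hx
    obtain ⟨t, ht, et⟩ := hstep x hx' k hk
    refine ⟨t, ht, ?_⟩
    have hinv : (el [x])⁻¹ = el [x] := by
      rw [el_cons, el_nil, mul_one, sigma_inv_eq (show x < 7 by omega)]
    show cj ((el [x])⁻¹ * y) PQ = _
    rw [hinv, cj_mul, e, et]

/-- a subgroup with the two Sylow subgroups in J2 contains J2 -/
theorem JJ_le_of {k : ℕ} (hk : k < 2016) (H : Subgroup P) (hS : PS ≤ H)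
    (hQ : cj (el (lW k)) PQ ≤ H) : JJ ≤ H := by
  induction k using Nat.strong_induction_on generalizing H with
  | _ k ih =>
    have h := par_ok k hk
    obtain ⟨-, -, ⟨hsa, hsb, hxa, hxb⟩, hJ, -, -⟩ := ok_lists
    by_cases hp : Nat.beq (slot parTab 22 k % 2) 1 = true
    · simp only [parOK, hp, Bool.and_eq_true, Nat.blt, Nat.ble_eq] at h
      obtain ⟨⟨ha, hv⟩, e⟩ := h
      obtain ⟨-, hnu, hn⟩ := normalizes_PQ hv
      set a := Nat.land (slot parTab 22 k >>> 1) 2047
      set g := Nat.land (slot parTab 22 k >>> 12) 3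
      have hgm : wordsNJ.getD g [] ∈ wordsNJ ∨ wordsNJ.getD g [] = [] := by
        rcases lt_or_ge g wordsNJ.length with hi | hi
        · rw [List.getD_eq_getElem _ _ hi]; exact Or.inl (List.getElem_mem hi)
        · exact Or.inr (List.getD_eq_default _ _ hi)
      set n := wordsNJ.getD g []
      have hn5 : okW 5 n = true := ok_getD hJ g
      have hnS : cj (el n) PS = PS := by
        rcases hgm with hm | hm
        · exact normalizes_PS (List.mem_append_left _ hm)
        · rw [hm, el_nil, cj_one]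
      have he := el_eq_four (okW_append.2 ⟨hn5, ok_lW (lt_trans ha hk)⟩)
        (okW_append.2 ⟨ok_lW hk, hnu⟩) e
      rw [el_append, el_append] at he
      have h1 : PS ≤ cj (el n)⁻¹ H := by
        rw [← cj_le_iff, hnS]; exact hS
      have h2 : cj (el (lW a)) PQ ≤ cj (el n)⁻¹ H := by
        rw [← cj_le_iff, ← cj_mul, he, cj_mul, hn]; exact hQ
      have := ih a ha (lt_trans ha hk) _ h1 h2
      calc JJ = cj (el n) JJ := (cj_mem_eq (el_mem_JJ hn5)).symm
        _ ≤ cj (el n) (cj (el n)⁻¹ H) := cj_mono _ this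
        _ = H := cj_cancel_inv _ _
    · simp only [parOK, Bool.not_eq_true] at h hp
      rw [hp] at h
      obtain ⟨p, hp', hpk⟩ := List.any_eq_true.1 h
      obtain rfl : p.1 = k := beq_iff_eq.1 hpk
      have hr := root_ok
      rw [Model.allK_iff] at hr
      have hr' := hr p hp'
      simp only [rootOK, Bool.and_eq_true, Model.allBelow_iff] at hr'
      rw [JJ, wordsFive_eq, cl, Subgroup.closure_le]
      rintro _ ⟨w, hw, rfl⟩
      obtain ⟨x, hx, rfl⟩ := List.mem_map.1 hw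
      have hx' : x < 5 := List.mem_range.1 hx
      obtain ⟨hok, e⟩ := hr'.2 x hx'
      show el [x] ∈ H
      rw [el_eq_four (okW_iff.2 (by simp; omega)) hok e]
      have hl : okW 7 (lW p.1) = true := okW_mono (ok_lW hk) (by omega)
      have hconj : ∀ v, okW 5 v = true → el v ∈ PQ → el (lW p.1 ++ v ++ (lW p.1).reverse) ∈ H := by
        intro v _ hv
        rw [el_append, el_append, el_reverse hl]
        exact hQ (conj_mem_cj hv)
      have hsa' : el sa ∈ H := hS (Subgroup.subset_closure (Or.inl rfl))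
      have hsb' : el sb ∈ H := hS (Subgroup.subset_closure (Or.inr rfl))
      have hA := hconj xa hxa (Subgroup.subset_closure (Or.inl rfl))
      have hB := hconj xb hxb (Subgroup.subset_closure (Or.inr rfl))
      have o7 : ∀ {v : List ℕ}, okW 5 v = true → okW 7 v = true := fun hv => okW_mono hv (by omega)
      refine el_flat_mem (fun v hv => ?_) _
      simp only [List.mem_cons, List.not_mem_nil, or_false] at hv
      have oA : okW 7 (lW p.1 ++ xa ++ (lW p.1).reverse) = true :=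
        okW_append.2 ⟨okW_append.2 ⟨hl, o7 hxa⟩, okW_reverse.2 hl⟩
      have oB : okW 7 (lW p.1 ++ xb ++ (lW p.1).reverse) = true :=
        okW_append.2 ⟨okW_append.2 ⟨hl, o7 hxb⟩, okW_reverse.2 hl⟩
      rcases hv with rfl | rfl | rfl | rfl | rfl | rfl | rfl | rfl
      exacts [hsa', hsb', hA, hB, el_reverse (o7 hsa) ▸ inv_mem hsa',
        el_reverse (o7 hsb) ▸ inv_mem hsb', el_reverse oA ▸ inv_mem hA, el_reverse oB ▸ inv_mem hB]

theorem card_MM : Nat.card MM = 251596800 := by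
  rw [MM, cl_six, card_map_sub, card_sub_six_eq]

theorem card_JJ : Nat.card JJ = 604800 := by
  rw [JJ, cl_five, card_map_sub, card_sub_five_eq]

theorem mem_orbit_six {p : Pt} (hp : Suz.Tab.labSix p = 1) : ∃ g ∈ MM, g Suz.P1 = p := by
  have : p ∈ MulAction.orbit MM Suz.P1 := by
    rw [MM, orbit_six, Set.mem_ofPred_eq, lab6_P1, hp]
  obtain ⟨g, hg⟩ := this
  exact ⟨g, g.2, hg⟩

theorem lab_of_mem {g : P} (hg : g ∈ MM) (i : Pt) : Suz.Tab.labSix (g i) = Suz.Tab.labSix i := by
  have : g i ∈ MulAction.orbit MM i := ⟨⟨g, hg⟩, rfl⟩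
  rwa [MM, orbit_six] at this

/-- Every subgroup of index 416 of the point stabiliser is conjugate to J2. -/
theorem class_one {H : Subgroup P} (hH : H ≤ MM) (hc : Nat.card H = 604800) :
    ∃ m ∈ MM, H = cj m JJ := by
  obtain ⟨h27, h25, -, hJ, hN, hR⟩ := ok_lists
  obtain ⟨g3, hg3, h3⟩ := exists_cj_le (by norm_num : Nat.Prime 3) hH (PS_le.trans JJ_le_MM)
    PS_isPGroup (by rw [hc, card_MM]; decide +kernel)
  obtain ⟨g5, hg5, h5⟩ := exists_cj_le (by norm_num : Nat.Prime 5) hH (PQ_le.trans JJ_le_MM)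
    PQ_isPGroup (by rw [hc, card_MM]; decide +kernel)
  set g := g3⁻¹ * g5 with hgdef
  have hg : g ∈ MM := mul_mem (inv_mem hg3) hg5
  have hlab : Suz.Tab.labSix (g Suz.P1) = 1 := (lab_of_mem hg _).trans lab6_P1
  have hw := (Model.allBelow_iff _ _).1 nWord_ok (g Suz.P1 : Pt) (g Suz.P1).2
  simp only [nWordOK, hlab, beq_self_eq_true, Bool.not_true, Bool.false_or, Bool.and_eq_true,
    Nat.blt, Nat.ble_eq, beq_iff_eq] at hw
  obtain ⟨hr, hrun⟩ := hw
  set r := slot destTab 3 (g Suz.P1 : Pt)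
  set n := flat wordsN (decW (slot nWordTab 24 (g Suz.P1 : Pt)))
  have hn6 : okW 6 n = true := ok_flat hN _
  have hn7 : okW 7 n = true := okW_mono hn6 (by omega)
  have hnS : cj (el n) PS = PS := by
    have : ∀ ix, cj (el (flat wordsN ix)) PS = PS := by
      intro ix
      induction ix with
      | nil => rw [flat, List.flatMap_nil, el_nil, cj_one]
      | cons i ix ih =>
        rw [flat, List.flatMap_cons, el_append, cj_mul]
        rw [flat] at ih
        rw [ih]
        rcases lt_or_ge i wordsN.length with hi | hi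
        · rw [List.getD_eq_getElem _ _ hi]
          exact normalizes_PS (List.mem_append_right _ (List.getElem_mem hi))
        · rw [List.getD_eq_default _ _ hi, el_nil, cj_one]
    exact this _
  have hrep := (Model.allBelow_iff _ _).1 rep_ok r hr
  simp only [Bool.and_eq_true, beq_iff_eq, Nat.blt, Nat.ble_eq] at hrep
  set t := repWords.getD r []
  have ht6 : okW 6 t = true := ok_getD hR r
  have ht7 : okW 7 t = true := okW_mono ht6 (by omega)
  set rp : Pt := ⟨repPts.getD r 0, hrep.2⟩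
  have hnp : el n (g Suz.P1) = rp := (el_apply_eq_iff hn7 _ _).2 hrun
  have htp : el t Suz.P1 = rp := (el_apply_eq_iff ht7 _ _).2 hrep.1
  set j := (el t)⁻¹ * el n * g with hjdef
  have hj : j ∈ JJ := mem_JJ_iff.2 ⟨mul_mem (mul_mem (inv_mem (el_mem_MM ht6)) (el_mem_MM hn6)) hg,
    by rw [hjdef, Equiv.Perm.mul_apply, Equiv.Perm.mul_apply, hnp, ← htp]; simp⟩
  obtain ⟨k, hk, hjk⟩ := exists_rep hj
  have hcj : cj (el n * g3⁻¹) H ≤ MM :=
    cj_le_self (mul_mem (el_mem_MM hn6) (inv_mem hg3)) hH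
  set H' := cj (el n * g3⁻¹) H with hH'
  have hS' : PS ≤ H' := by
    rw [← hnS, hH', cj_mul]
    exact cj_mono _ (by rw [← cj_le_iff]; exact h3)
  have hQ' : cj (el t) (cj (el (lW k)) PQ) ≤ H' := by
    rw [← hjk, ← cj_mul, show el t * j = el n * g3⁻¹ * g5 by rw [hjdef, hgdef]; group, cj_mul, hH']
    exact cj_mono _ h5
  have hc' : Nat.card H' = 604800 := by rw [hH', card_cj, hc]
  by_cases hr0 : r = 0
  · have htnil : t = [] := by rw [show t = repWords.getD r [] from rfl, hr0]; rfl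
    rw [htnil, el_nil, cj_one] at hQ'
    have := JJ_le_of hk H' hS' hQ'
    have he : H' = JJ :=
      (Subgroup.eq_of_le_of_card_ge this (by rw [hc', card_JJ])).symm
    refine ⟨(el n * g3⁻¹)⁻¹, inv_mem (mul_mem (el_mem_MM hn6) (inv_mem hg3)), ?_⟩
    rw [← he, hH', cj_inv_cancel]
  · exfalso
    have h := kill_ok ((r - 1) * 2016 + k) (by omega)
    simp only [killOK, show ((r - 1) * 2016 + k) / 2016 + 1 = r by omega,
      show ((r - 1) * 2016 + k) % 2016 = k by omega] at h
    have hl7 : okW 7 (lW k) = true := okW_mono (ok_lW hk) (by omega)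
    have hseg : ∀ s q, okW 7 (t.reverse ++ w27.getD s [] ++ t ++ lW k ++ w25.getD q [] ++
          (lW k).reverse) = true ∧
        el (t.reverse ++ w27.getD s [] ++ t ++ lW k ++ w25.getD q [] ++ (lW k).reverse) ∈
          cj (el t)⁻¹ H' := by
      intro s q
      have os : okW 7 (w27.getD s []) = true := okW_mono (ok_getD h27 s) (by omega)
      have oq : okW 7 (w25.getD q []) = true := okW_mono (ok_getD h25 q) (by omega)
      refine ⟨by simp only [okW_append, okW_reverse]; exact ⟨⟨⟨⟨⟨ht7, os⟩, ht7⟩, hl7⟩, oq⟩, hl7⟩, ?_⟩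
      simp only [el_append, el_reverse ht7, el_reverse hl7]
      rw [show (el t)⁻¹ * el (w27.getD s []) * el t * el (lW k) * el (w25.getD q []) * (el (lW k))⁻¹
        = ((el t)⁻¹ * el (w27.getD s []) * el t) *
          (el (lW k) * el (w25.getD q []) * (el (lW k))⁻¹) by group]
      refine mul_mem ?_ ?_
      · have := conj_mem_cj (g := (el t)⁻¹) (hS' (el_getD_mem (H := PS) (fun w hw => mem_PS hw) s))
        simpa using this
      · exact cj_le_iff.1 hQ' (conj_mem_cj (el_getD_mem (fun w hw => mem_PQ hw) q))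
    set e := slot killTab 31 ((r - 1) * 2016 + k)
    have hmem : ∀ (b : Bool), okW 7 (Bool.rec
        (t.reverse ++ w27.getD (Nat.land (e >>> 10) 31) [] ++ t ++ lW k ++
          w25.getD (Nat.land (e >>> 15) 31) [] ++ (lW k).reverse) [] b) = true ∧
        el (Bool.rec (t.reverse ++ w27.getD (Nat.land (e >>> 10) 31) [] ++ t ++ lW k ++
          w25.getD (Nat.land (e >>> 15) 31) [] ++ (lW k).reverse) [] b) ∈ cj (el t)⁻¹ H' := by
      intro b
      cases b
      · exact hseg _ _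
      · exact ⟨okW_iff.2 (by simp), one_mem _⟩
    refine not_cycle (okW_append.2 ⟨(hseg _ _).1, (hmem _).1⟩) (by norm_num : Nat.Prime 13) h
      (cj (el t)⁻¹ H') ?_ (by rw [card_cj, hc']; norm_num)
    rw [el_append]
    exact mul_mem (hseg _ _).2 (hmem _).2

end CfsgLib.SuzRankThree5
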