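import Cfsg.Agent.SuzRankThree5.TwoGroup

/-!
The subgroups of index 1365 leaving invariant 96 points of the suborbit of 416 points form one
class.
-/

set_option autoImplicit false
set_option maxRecDepth 100000

namespace CfsgLib.SuzRankThree5

open CfsgLib.CosetEnum CfsgLib.CosetEnum.Suz

theorem UU_orbit {p : Pt} (hp : Suz.Tab.labSix p = 2) :
    ∃ u ∈ UU, ∃ r < 6, ((u⁻¹ p : Pt) : ℕ) = repU.getD r 0 := by
  have h := (Model.allBelow_iff _ _).1 path_ok p p.2
  simp only [pathOK, hp, beq_self_eq_true, Bool.not_true, Bool.false_or, Bool.and_eq_true,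
    Nat.blt, Nat.ble_eq, beq_iff_eq] at h
  have hU : ∀ w ∈ wordsU, okW 7 w = true := fun w hw => okW_mono (ok_two.1 w hw) (by omega)
  exact ⟨_, el_flat_mem (fun w hw => el_mem_UU hw) _, _, h.1,
    (el_inv_val (ok_flat hU _) p).trans h.2⟩

/-- Every subgroup of index 1365 with an invariant set of 96 of the 416 points fixes a point. -/
theorem class_two {H : Subgroup P} (hH : H ≤ MM) (hc : Nat.card H = 184320) (Y : Set Pt)
    (hY : ∀ i ∈ Y, Suz.Tab.labSix i = 1) (hn : Y.ncard = 96)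
    (hinv : ∀ h ∈ H, ∀ i, h i ∈ Y ↔ i ∈ Y) : ∃ m ∈ MM, H = cj m PY := by
  have hUM : UU ≤ MM := fun x hx => (mem_PY.1 (UU_le_PY hx)).1
  obtain ⟨g, hg, hgU⟩ := exists_cj_le (by norm_num : Nat.Prime 2) hH hUM UU_isPGroup
    (by rw [hc, card_MM]; decide +kernel)
  set H' := cj g⁻¹ H with hH'
  have hU : UU ≤ H' := cj_le_iff.1 hgU
  have hH'M : H' ≤ MM := cj_le_self (inv_mem hg) hH
  have hc' : Nat.card H' = 184320 := by rw [hH', card_cj, hc]
  set Y' : Set Pt := {i | g i ∈ Y}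
  have hY' : ∀ i ∈ Y', Suz.Tab.labSix i = 1 := fun i hi => (lab_of_mem hg i).symm.trans (hY _ hi)
  have hn' : Y'.ncard = 96 := by
    rw [← hn, ← Set.ncard_image_of_injective Y' g.injective]
    congr 1
    ext i
    exact ⟨fun ⟨j, hj, e⟩ => e ▸ hj,
      fun hi => ⟨g⁻¹ i, by show g (g⁻¹ i) ∈ Y; simpa using hi, by simp⟩⟩
  have hinv' : ∀ h ∈ H', ∀ i, h i ∈ Y' ↔ i ∈ Y' := by
    intro h hh i
    have hk : g⁻¹⁻¹ * h * g⁻¹ ∈ H := mem_cj.1 hh
    have := hinv _ hk (g i)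
    simpa [Y'] using this
  suffices hle : H' ≤ PY by
    refine ⟨g, hg, ?_⟩
    rw [← Subgroup.eq_of_le_of_card_ge hle (by rw [hc', card_PY]), hH', cj_cancel_inv]
  intro x hx
  refine mem_PY.2 ⟨hH'M hx, ?_⟩
  by_contra hne
  obtain ⟨u, hu, r, hr, hur⟩ :=
    UU_orbit (p := x Y0) ((lab_of_mem (hH'M hx) Y0).trans lab_Y0)
  obtain ⟨hlenU, hlenC, hrep0, -, hlenM, -⟩ := lengths_two
  obtain ⟨s, rfl⟩ : ∃ s, r = s + 1 := by
    refine Nat.exists_eq_succ_of_ne_zero fun h0 => hne ?_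
    have e : u⁻¹ (x Y0) = Y0 := Fin.ext (by rw [hur, h0, hrep0, Y0_val])
    have hy : u Y0 = Y0 := (mem_PY.1 (UU_le_PY hu)).2
    calc x Y0 = u (u⁻¹ (x Y0)) := by simp
      _ = Y0 := by rw [e, hy]
  have hs : s < 5 := by omega
  have hmv := (Model.allBelow_iff _ _).1 move_ok s hs
  simp only [Bool.and_eq_true, beq_iff_eq, Nat.blt, Nat.ble_eq] at hmv
  obtain ⟨⟨hrun, -⟩, hlt⟩ := hmv
  set w := moveU.getD s []
  have hw6 : okW 6 w = true := ok_getD ok_two.2.2.1 s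
  have hw7 : okW 7 w = true := okW_mono hw6 (by omega)
  have hwY : el w Y0 = u⁻¹ (x Y0) := by
    rw [el_apply_eq_iff hw7, hur, hrun, Y0_val]
  have hπ : (el w)⁻¹ * u⁻¹ * x ∈ PY := mem_PY.2
    ⟨mul_mem (mul_mem (inv_mem (el_mem_MM hw6)) (inv_mem (hUM hu))) (hH'M hx),
      by rw [Equiv.Perm.mul_apply, Equiv.Perm.mul_apply, ← hwY]; simp⟩
  obtain ⟨k, hk, v, hv, hkv⟩ := PY_eq_cosets hπ
  have hc7 : okW 7 (cosetU.getD k []) = true := okW_mono (ok_getD ok_two.2.1 k) (by omega)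
  set cand := w ++ cosetU.getD k []
  have hcok : okW 7 cand = true := okW_append.2 ⟨hw7, hc7⟩
  have hcand : el cand ∈ H' := by
    have e : el cand = u⁻¹ * x * v⁻¹ := by
      rw [el_append, show u⁻¹ * x * v⁻¹ = el w * ((el w)⁻¹ * u⁻¹ * x) * v⁻¹ by group, hkv]
      group
    rw [e]
    exact mul_mem (mul_mem (inv_mem (hU hu)) hx) (inv_mem (hU hv))
  have hj := (Model.allBelow_iff _ _).1 killTwo_ok (45 * s + k) (by omega)
  simp only [killTwoOK, show (45 * s + k) / 45 = s by omega,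
    show (45 * s + k) % 45 = k by omega] at hj
  set e := killTwo.getD (45 * s + k) ([], 0, 0)
  have hgens : ∀ a ∈ cand :: wordsU, okW 7 a = true ∧ el a ∈ H' := by
    intro a ha
    rcases List.mem_cons.1 ha with rfl | ha
    exacts [⟨hcok, hcand⟩, ⟨okW_mono (ok_two.1 a ha) (by omega), hU (el_mem_UU ha)⟩]
  cases hb : e.1.isEmpty
  · rw [hb] at hj
    simp only [Bool.and_eq_true, Bool.or_eq_true, beq_iff_eq] at hj
    obtain ⟨h7, hcy⟩ := hj
    have hok := ok_flat (fun a ha => (hgens a ha).1) e.1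
    have hmem := el_flat_mem (fun a ha => (hgens a ha).2) e.1
    rcases h7 with h7 | h7 <;> rw [h7] at hcy <;>
      exact not_cycle hok (by norm_num) hcy H' hmem (by rw [hc']; norm_num)
  · rw [hb] at hj
    simp only [Bool.and_eq_true, Nat.blt, Nat.ble_eq] at hj
    obtain ⟨-, hall, hcnt⟩ := hj
    obtain ⟨m, hm, -, hcard⟩ := PartCert.exists_mask _ hall (fun a ha => (hgens a ha).1) Y' hY'
      (fun a ha => hinv' _ (hgens a ha).2)
    rw [Model.allBelow_iff] at hcnt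
    have := hcnt m hm
    rw [← hcard, hn'] at this
    simp at this

end CfsgLib.SuzRankThree5
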