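import Cfsg.Agent.SuzRankThree5.Words
import Mathlib.GroupTheory.Sylow

/-! Conjugates of subgroups, Sylow arguments and tables of small subgroups. -/

set_option autoImplicit false

namespace CfsgLib.SuzRankThree5

open CfsgLib.CosetEnum CfsgLib.CosetEnum.Suz

variable {X : Type*} [Group X]

/-- the conjugate of a subgroup -/
def cj (g : X) (K : Subgroup X) : Subgroup X := K.map (MulAut.conj g).toMonoidHom

theorem mem_cj {g : X} {K : Subgroup X} {x : X} : x ∈ cj g K ↔ g⁻¹ * x * g ∈ K := by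
  constructor
  · rintro ⟨k, hk, rfl⟩
    simpa [mul_assoc] using hk
  · intro h
    exact ⟨_, h, by simp [mul_assoc]⟩

theorem conj_mem_cj {g : X} {K : Subgroup X} {x : X} (hx : x ∈ K) : g * x * g⁻¹ ∈ cj g K :=
  mem_cj.2 (by simpa [mul_assoc] using hx)

theorem cj_mul (g h : X) (K : Subgroup X) : cj (g * h) K = cj g (cj h K) := by
  ext x
  simp [mem_cj, mul_assoc]

theorem cj_one (K : Subgroup X) : cj 1 K = K := by ext x; simp [mem_cj]

theorem cj_inv_cancel (g : X) (K : Subgroup X) : cj g⁻¹ (cj g K) = K := by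
  rw [← cj_mul, inv_mul_cancel, cj_one]

theorem cj_cancel_inv (g : X) (K : Subgroup X) : cj g (cj g⁻¹ K) = K := by
  rw [← cj_mul, mul_inv_cancel, cj_one]

theorem cj_mono (g : X) {K L : Subgroup X} (h : K ≤ L) : cj g K ≤ cj g L := Subgroup.map_mono h

theorem cj_le_iff {g : X} {K L : Subgroup X} : cj g K ≤ L ↔ K ≤ cj g⁻¹ L := by
  constructor
  · intro h; rw [← cj_inv_cancel g K]; exact cj_mono _ h
  · intro h; rw [← cj_cancel_inv g L]; exact cj_mono _ h

theorem card_cj (g : X) (K : Subgroup X) : Nat.card (cj g K) = Nat.card K :=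
  (Nat.card_congr (Subgroup.equivMapOfInjective K _ (MulAut.conj g).injective).toEquiv).symm

theorem cj_le_self {g : X} {K M : Subgroup X} (hg : g ∈ M) (hK : K ≤ M) : cj g K ≤ M := by
  rintro _ ⟨k, hk, rfl⟩
  exact mul_mem (mul_mem hg (hK hk)) (inv_mem hg)

theorem cj_mem_eq {g : X} {M : Subgroup X} (hg : g ∈ M) : cj g M = M := by
  ext x
  rw [mem_cj]
  exact ⟨fun h => by simpa [mul_assoc] using mul_mem (mul_mem hg h) (inv_mem hg),
    fun h => mul_mem (mul_mem (inv_mem hg) h) hg⟩

theorem cj_closure_eq [Finite X] {g : X} {S : Set X}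
    (h : ∀ x ∈ S, g * x * g⁻¹ ∈ Subgroup.closure S) :
    cj g (Subgroup.closure S) = Subgroup.closure S := by
  refine Subgroup.eq_of_le_of_card_ge ?_ (card_cj g _).ge
  rw [cj, MonoidHom.map_closure, Subgroup.closure_le]
  rintro _ ⟨x, hx, rfl⟩
  exact h x hx

/-- A `p`-subgroup of `M` lies in a conjugate of a subgroup with the same `p`-part. -/
theorem exists_cj_le [Finite X] {p : ℕ} (hp : p.Prime) {M H S : Subgroup X} (hH : H ≤ M)
    (hS : S ≤ M) (hSp : IsPGroup p S)
    (hfac : (Nat.card H).factorization p = (Nat.card M).factorization p) :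
    ∃ g ∈ M, cj g S ≤ H := by
  have : Fact p.Prime := ⟨hp⟩
  obtain ⟨Q⟩ : Nonempty (Sylow p H) := inferInstance
  let Q' : Subgroup M := (Q.toSubgroup.map H.subtype).subgroupOf M
  have hQH : Q.toSubgroup.map H.subtype ≤ H := Subgroup.map_subtype_le _
  have hcard : Nat.card Q' = p ^ (Nat.card M).factorization p := by
    rw [Nat.card_congr (Subgroup.subgroupOfEquivOfLe (hQH.trans hH)).toEquiv,
      ← Nat.card_congr (Subgroup.equivMapOfInjective _ _ H.subtype_injective).toEquiv,
      Q.card_eq_multiplicity, hfac]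
  let QS : Sylow p M := Sylow.ofCard Q' hcard
  obtain ⟨T, hT⟩ := (hSp.of_equiv (Subgroup.subgroupOfEquivOfLe hS).symm).exists_le_sylow
  obtain ⟨m, hm⟩ := MulAction.exists_smul_eq M T QS
  refine ⟨m, m.2, ?_⟩
  rintro _ ⟨s, hs, rfl⟩
  have hsT : (⟨s, hS hs⟩ : M) ∈ T.toSubgroup := hT hs
  have : m * ⟨s, hS hs⟩ * m⁻¹ ∈ QS.toSubgroup := by
    rw [← hm, Sylow.coe_subgroup_smul]
    exact ⟨_, hsT, rfl⟩
  exact hQH this

/-- membership of compositions -/
theorem el_flat_mem {H : Subgroup P} {g : List (List ℕ)} (hg : ∀ w ∈ g, el w ∈ H) (ix : List ℕ) :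
    el (ix.flatMap fun i => g.getD i []) ∈ H := by
  induction ix with
  | nil => exact one_mem H
  | cons i ix ih =>
    rw [List.flatMap_cons, el_append]
    refine mul_mem ?_ ih
    rcases lt_or_ge i g.length with hi | hi
    · rw [List.getD_eq_getElem _ _ hi]; exact hg _ (List.getElem_mem hi)
    · rw [List.getD_eq_default _ _ hi]; exact one_mem H

theorem el_getD_mem {H : Subgroup P} {g : List (List ℕ)} (hg : ∀ w ∈ g, el w ∈ H) (i : ℕ) :
    el (g.getD i []) ∈ H := by
  simpa using el_flat_mem hg [i]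

/-- A list of words closed under the generators and their inverses is the generated subgroup. -/
theorem closure_eq_list {a b : List ℕ} {W : List (List ℕ)} (h1 : [] ∈ W)
    (hmul : ∀ v ∈ W, ∀ g ∈ [a, b, a.reverse, b.reverse], ∃ u ∈ W, el (v ++ g) = el u)
    (ha : okW 7 a = true) (hb : okW 7 b = true) :
    ∀ x ∈ Subgroup.closure ({el a, el b} : Set P), ∃ u ∈ W, el u = x := by
  have step : ∀ {y : P}, y ∈ ({el a, el b} : Set P) → ∀ {x : P}, (∃ u ∈ W, el u = x) →
      (∃ u ∈ W, el u = x * y) ∧ (∃ u ∈ W, el u = x * y⁻¹) := by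
    rintro y hy x ⟨v, hv, rfl⟩
    constructor
    · rcases hy with rfl | rfl
      · obtain ⟨u, hu, e⟩ := hmul v hv a (by simp)
        exact ⟨u, hu, by rw [← e, el_append]⟩
      · obtain ⟨u, hu, e⟩ := hmul v hv b (by simp)
        exact ⟨u, hu, by rw [← e, el_append]⟩
    · rcases hy with rfl | rfl
      · obtain ⟨u, hu, e⟩ := hmul v hv a.reverse (by simp)
        exact ⟨u, hu, by rw [← e, el_append, el_reverse ha]⟩
      · obtain ⟨u, hu, e⟩ := hmul v hv b.reverse (by simp)
        exact ⟨u, hu, by rw [← e, el_append, el_reverse hb]⟩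
  intro x hx
  induction hx using Subgroup.closure_induction_right with
  | one => exact ⟨[], h1, el_nil⟩
  | mul_right x _ y hy ih => exact (step hy ih).1
  | mul_inv_cancel x _ y hy ih => exact (step hy ih).2

theorem isPGroup_of_exp {p : ℕ} {S : Subgroup P} (h : ∀ x ∈ S, x ^ p = 1) : IsPGroup p S :=
  fun x => ⟨1, Subtype.ext (by simpa using h x x.2)⟩

theorem closure_small [DecidableEq P] {a b : List ℕ} {W : List (List ℕ)}
    (h : ∀ x ∈ Subgroup.closure ({el a, el b} : Set P), ∃ u ∈ W, el u = x) :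
    Nat.card (Subgroup.closure ({el a, el b} : Set P)) ≤ W.length := by
  have hfin : ((Subgroup.closure ({el a, el b} : Set P)) : Set P) ⊆ ↑((W.map el).toFinset) :=
    fun x hx => by
      obtain ⟨u, hu, rfl⟩ := h x hx
      simpa using ⟨u, hu, rfl⟩
  refine (Set.ncard_le_ncard hfin (Finset.finite_toSet _)).trans ?_
  rw [Set.ncard_coe_finset]
  exact (List.toFinset_card_le _).trans (by simp)

end CfsgLib.SuzRankThree5
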