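import Cfsg.Agent.SuzRankThree5.Model

/-! Invariant sets in the suborbits of the model, and their adjacency. -/

set_option autoImplicit false
set_option maxRecDepth 100000

namespace CfsgLib.SuzRankThree5

open CfsgLib.CosetEnum CfsgLib.CosetEnum.Suz

theorem mem_JJ_orbit {Y : Set Pt} (hinv : ∀ h ∈ JJ, ∀ i, h i ∈ Y ↔ i ∈ Y) {i j : Pt}
    (h : Suz.Tab.labFive i = Suz.Tab.labFive j) : i ∈ Y ↔ j ∈ Y := by
  have hm : i ∈ MulAction.orbit JJ j := by rw [JJ, orbit_five]; exact h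
  obtain ⟨g, hg⟩ := hm
  rw [← hg]
  exact hinv g g.2 j

theorem five_mem (i : Pt) (hl : Suz.Tab.labSix i = 1) (hne : i ≠ Suz.P1) :
    Suz.Tab.labFive i = 2 ∨ Suz.Tab.labFive i = 5 := by
  have := (Model.allBelow_iff _ _).1 split_five i i.2
  simp only [hl, beq_self_eq_true, Bool.not_true, Bool.false_or, Bool.or_eq_true,
    beq_iff_eq] at this
  rcases this with (h | h) | h
  exacts [absurd (Fin.ext h) hne, Or.inl h, Or.inr h]

theorem six_of_five : allBelow (fun i => (!(Suz.Tab.labFive i == 2) && !(Suz.Tab.labFive i == 5)) ||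
    ((Suz.Tab.labSix i == 1) && !(i == 995))) 1782 = true := by
  decide +kernel

theorem ncard_five (l k : ℕ) (hk : countLabel Suz.Tab.labFive l 1782 = k) :
    {i : Pt | Suz.Tab.labFive i = l}.ncard = k := by
  rw [ncard_label]
  exact hk

/-- An invariant subset of the 416 points avoiding the fixed one is a union of the two orbits. -/
theorem five_cases {Y : Set Pt} (hY : ∀ i ∈ Y, Suz.Tab.labSix i = 1) (hne : Suz.P1 ∉ Y)
    (hinv : ∀ h ∈ JJ, ∀ i, h i ∈ Y ↔ i ∈ Y) :
    Y.ncard = 0 ∨ (Y.ncard = 100 ∧ Y = {i : Pt | Suz.Tab.labFive i = 2}) ∨ Y.ncard = 315 ∨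
      Y.ncard = 415 := by
  classical
  set A : Set Pt := {i | Suz.Tab.labFive i = 2}
  set B : Set Pt := {i | Suz.Tab.labFive i = 5}
  have hsub : Y ⊆ A ∪ B := fun i hi => five_mem i (hY i hi) fun e => hne (e ▸ hi)
  have hA : A ⊆ Y ∨ Disjoint A Y := by
    by_cases h : ∃ i ∈ A, i ∈ Y
    · obtain ⟨i, hi, hiY⟩ := h
      exact Or.inl fun j hj => (mem_JJ_orbit hinv (hj.trans hi.symm)).2 hiY
    · exact Or.inr (Set.disjoint_left.2 fun i hi hiY => h ⟨i, hi, hiY⟩)
  have hB : B ⊆ Y ∨ Disjoint B Y := by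
    by_cases h : ∃ i ∈ B, i ∈ Y
    · obtain ⟨i, hi, hiY⟩ := h
      exact Or.inl fun j hj => (mem_JJ_orbit hinv (hj.trans hi.symm)).2 hiY
    · exact Or.inr (Set.disjoint_left.2 fun i hi hiY => h ⟨i, hi, hiY⟩)
  have cA : A.ncard = 100 := ncard_five 2 100 count_five2
  have cB : B.ncard = 315 := ncard_five 5 315 count_five5
  have hAB : Disjoint A B := Set.disjoint_left.2 fun i h1 h2 => by
    simp only [A, B, Set.mem_ofPred_eq] at h1 h2; omega
  rcases hA with hA | hA <;> rcases hB with hB | hB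
  · refine Or.inr (Or.inr (Or.inr ?_))
    rw [Set.Subset.antisymm hsub (Set.union_subset hA hB), Set.ncard_union_eq hAB, cA, cB]
  · have e : Y = A := Set.Subset.antisymm
      (fun i hi => (hsub hi).resolve_right fun h => Set.disjoint_left.1 hB h hi) hA
    exact Or.inr (Or.inl ⟨e ▸ cA, e⟩)
  · have e : Y = B := Set.Subset.antisymm
      (fun i hi => (hsub hi).resolve_left fun h => Set.disjoint_left.1 hA h hi) hB
    exact Or.inr (Or.inr (Or.inl (e ▸ cB)))
  · refine Or.inl ?_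
    have e : Y = ∅ := Set.eq_empty_of_forall_notMem fun i hi => by
      rcases hsub hi with h | h
      exacts [Set.disjoint_left.1 hA h hi, Set.disjoint_left.1 hB h hi]
    rw [e, Set.ncard_empty]

theorem adj_P1 {i : Pt} (hl : Suz.Tab.labSix i = 1) :
    Adj Suz.P1 i ↔ Suz.Tab.labFive i = 2 := by
  have h := (Model.allBelow_iff _ _).1 nbrs_base i i.2
  simp only [hl, beq_self_eq_true, Bool.not_true, Bool.false_or, beq_iff_eq] at h
  have := row_adj (k := 5) (by omega) i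
  rw [row_last.2.1, h, beq_iff_eq] at this
  exact this

/-- neighbours of the point in the larger suborbit, within a suborbit -/
noncomputable def labAdj (l i : ℕ) : ℕ :=
  cond ((Suz.Tab.labSix i == l) && rowBit 27 i) 1 0

theorem count_adj : countLabel (labAdj 1) 1 1782 = 96 ∧ countLabel (labAdj 2) 1 1782 = 320 := by
  decide +kernel

theorem count_unique : allBelow (fun m => allBelow (fun m' =>
      !(partOne.count m == 96) || !(partOne.count m' == 96) || (m == m')) 4) 4 = true ∧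
    allBelow (fun m => allBelow (fun m' =>
      !(partTwo.count m == 320) || !(partTwo.count m' == 320) || (m == m')) 16) 16 = true := by
  decide +kernel

theorem parts_eq : partOne.parts = 2 ∧ partTwo.parts = 4 := by decide +kernel

theorem adj_Y0 (i : Pt) : Adj Y0 i ↔ rowBit 27 i = true := by
  have := row_adj (k := 27) (by omega) i
  rw [row_last.1] at this
  exact this

theorem labAdj_iff {l : ℕ} {i : Pt} :
    labAdj l i = 1 ↔ Suz.Tab.labSix i = l ∧ Adj Y0 i := by
  rw [adj_Y0, labAdj]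
  cases hb : ((Suz.Tab.labSix i == l) && rowBit 27 i)
  · simp only [cond_false, zero_ne_one, false_iff]
    rintro ⟨h1, h2⟩
    simp [h1, h2] at hb
  · simp only [Bool.and_eq_true, beq_iff_eq] at hb
    simp [hb]

theorem PY_adj {g : P} (hg : g ∈ PY) {l : ℕ} (i : Pt) :
    (Suz.Tab.labSix (g i : Pt) = l ∧ Adj Y0 (g i)) ↔ (Suz.Tab.labSix i = l ∧ Adj Y0 i) := by
  obtain ⟨hM, hfix⟩ := mem_PY.1 hg
  rw [lab_of_mem hM]
  refine and_congr_right fun _ => ?_
  conv_lhs => rw [← hfix]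
  exact adj_map (MM_le_range hM) _ _

theorem PY_sets (C : PartCert) {l n : ℕ}
    (hC : C.allOK l (wordsU ++ wordsExtra) = true)
    (hu : ∀ m < 2 ^ C.parts, ∀ m' < 2 ^ C.parts, C.count m = n → C.count m' = n → m = m')
    (hn : countLabel (labAdj l) 1 1782 = n) {Y : Set Pt} (hY : ∀ i ∈ Y, Suz.Tab.labSix i = l)
    (hYn : Y.ncard = n) (hinv : ∀ h ∈ PY, ∀ i, h i ∈ Y ↔ i ∈ Y) :
    ∀ i, i ∈ Y ↔ Suz.Tab.labSix i = l ∧ Adj Y0 i := by
  set Z : Set Pt := {i | labAdj l i = 1}
  have hZn : Z.ncard = n := by rw [ncard_label]; exact hn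
  have hok : ∀ w ∈ wordsU ++ wordsExtra, el w ∈ PY ∧ okW 7 w = true := by
    intro w hw
    have := el_mem_PY (w := w) (by
      rcases List.mem_append.1 hw with h | h
      exacts [List.mem_append_left _ (List.mem_append_left _ h), List.mem_append_right _ h])
    exact ⟨this.1, okW_mono this.2 (by omega)⟩
  obtain ⟨m, hm, hmY, hmc⟩ := C.exists_mask hC (fun w hw => (hok w hw).2) Y hY
    (fun w hw => hinv _ (hok w hw).1)
  obtain ⟨m', hm', hmZ, hmc'⟩ := C.exists_mask hC (fun w hw => (hok w hw).2) Z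
    (fun i hi => (labAdj_iff.1 hi).1) (fun w hw i => by
      show labAdj l _ = 1 ↔ labAdj l _ = 1
      rw [labAdj_iff, labAdj_iff]
      exact PY_adj (hok w hw).1 i)
  have := hu m hm m' hm' (hmc ▸ hYn) (hmc' ▸ hZn)
  intro i
  rw [hmY, this, ← hmZ]
  exact labAdj_iff

theorem PY_set_one {Y : Set Pt} (hY : ∀ i ∈ Y, Suz.Tab.labSix i = 1) (hYn : Y.ncard = 96)
    (hinv : ∀ h ∈ PY, ∀ i, h i ∈ Y ↔ i ∈ Y) : ∀ i, i ∈ Y ↔ Suz.Tab.labSix i = 1 ∧ Adj Y0 i := by
  refine PY_sets partOne partOne_ok (fun m hm m' hm' h h' => ?_) count_adj.1 hY hYn hinv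
  rw [parts_eq.1] at hm hm'
  have := (Model.allBelow_iff _ _).1 ((Model.allBelow_iff _ _).1 count_unique.1 m hm) m' hm'
  simpa [h, h'] using this

theorem PY_set_two {Y : Set Pt} (hY : ∀ i ∈ Y, Suz.Tab.labSix i = 2) (hYn : Y.ncard = 320)
    (hinv : ∀ h ∈ PY, ∀ i, h i ∈ Y ↔ i ∈ Y) : ∀ i, i ∈ Y ↔ Suz.Tab.labSix i = 2 ∧ Adj Y0 i := by
  refine PY_sets partTwo partTwo_ok (fun m hm m' hm' h h' => ?_) count_adj.2 hY hYn hinv
  rw [parts_eq.2] at hm hm'
  have := (Model.allBelow_iff _ _).1 ((Model.allBelow_iff _ _).1 count_unique.2 m hm) m' hm'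
  simpa [h, h'] using this

end CfsgLib.SuzRankThree5
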