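import Cfsg.Agent.SuzRankThree5.Setting
import Cfsg.Agent.SuzRankThree5.Suborbits

/-!
The intersection numbers of the graph: a point and two neighbours.
-/

set_option autoImplicit false

namespace CfsgLib.SuzRankThree5

open CfsgLib.CosetEnum CfsgLib.CosetEnum.Suz

namespace Setting

variable {Ω : Type*} [Fintype Ω] [DecidableEq Ω] (S : Setting Ω)

theorem fix_b (hS : S.img S.b = JJ) (g : ↥S.Ga) :
    S.th g Suz.P1 = Suz.P1 ↔ (g : Equiv.Perm Ω) S.b = S.b := by
  have := S.fix_iff_of_img (x := S.b) (m := 1) (K := JJ) (q := Suz.P1) (one_mem MM)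
    (by rw [hS, cj_one]) (fun k => mem_JJ_iff) g
  simpa using this

theorem orb_invariant {x : Ω} (g : ↥S.Ga) (v : Ω) :
    (g : Equiv.Perm Ω) v ∈ S.orb x ↔ v ∈ S.orb x := by
  constructor
  · intro h
    have e : (g⁻¹ : ↥S.Ga) • ((g : Equiv.Perm Ω) v) ∈ MulAction.orbit S.Ga x := by
      obtain ⟨k, hk⟩ := MulAction.mem_orbit_iff.1 h
      exact MulAction.mem_orbit_iff.2 ⟨g⁻¹ * k, by rw [mul_smul, hk]⟩
    have e2 : (g⁻¹ : ↥S.Ga) • ((g : Equiv.Perm Ω) v) = v := inv_smul_smul g v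
    rwa [e2] at e
  · intro h
    obtain ⟨k, hk⟩ := h
    exact ⟨g * k, by rw [← hk]; rfl⟩

/-- the set of neighbours of a fixed point inside a suborbit, read in the model -/
theorem image_invariant {x y : Ω} {q : Pt}
    {f : Ω → Pt} (hf : ∀ g : ↥S.Ga, f ((g : Equiv.Perm Ω) x) = S.th g q)
    (hq : ∀ g : ↥S.Ga, S.th g q = q ↔ (g : Equiv.Perm Ω) x = x) :
    ∀ h ∈ S.img y, ∀ i, h i ∈ f '' {v | v ∈ S.orb x ∧ S.R y v} ↔
      i ∈ f '' {v | v ∈ S.orb x ∧ S.R y v} := by
  have key : ∀ h ∈ S.img y, ∀ i, i ∈ f '' {v | v ∈ S.orb x ∧ S.R y v} →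
      h i ∈ f '' {v | v ∈ S.orb x ∧ S.R y v} := by
    rintro h hh _ ⟨v, ⟨hvo, hR⟩, rfl⟩
    obtain ⟨g, hg, rfl⟩ := S.mem_img.1 hh
    obtain ⟨k, rfl⟩ := S.mem_orb.1 hvo
    refine ⟨(g : Equiv.Perm Ω) ((k : Equiv.Perm Ω) x), ⟨(S.orb_invariant g _).2 hvo, ?_⟩, ?_⟩
    · rw [← hg]
      exact (S.R_Ga g _ _).2 hR
    · rw [hf k, ← Equiv.Perm.mul_apply, ← Equiv.Perm.mul_apply, ← map_mul, ← hf (g * k)]
      rfl
  intro h hh i
  refine ⟨fun hi => ?_, key h hh i⟩
  simpa using key h⁻¹ (inv_mem hh) _ hi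

theorem injOn_map {x : Ω} {q : Pt} {f : Ω → Pt}
    (hf : ∀ g : ↥S.Ga, f ((g : Equiv.Perm Ω) x) = S.th g q)
    (hq : ∀ g : ↥S.Ga, S.th g q = q ↔ (g : Equiv.Perm Ω) x = x) : Set.InjOn f (S.orb x) := by
  intro u hu v hv e
  obtain ⟨g, rfl⟩ := S.mem_orb.1 hu
  obtain ⟨k, rfl⟩ := S.mem_orb.1 hv
  rw [hf, hf] at e
  exact (S.th_eq_iff hq g k).1 e

theorem lab_map {x : Ω} {q : Pt} {f : Ω → Pt}
    (hf : ∀ g : ↥S.Ga, f ((g : Equiv.Perm Ω) x) = S.th g q) {v : Ω} (hv : v ∈ S.orb x) :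
    Suz.Tab.labSix (f v : Pt) = Suz.Tab.labSix q := by
  obtain ⟨g, rfl⟩ := S.mem_orb.1 hv
  rw [hf, lab_of_mem (S.th_mem g)]

/-- the common neighbours of two adjacent points -/
theorem ncard_common (hS : S.img S.b = JJ) (f : Ω → Pt)
    (hf : ∀ g : ↥S.Ga, f ((g : Equiv.Perm Ω) S.b) = S.th g Suz.P1) :
    f '' {v | v ∈ S.orb S.b ∧ S.R S.b v} = {i : Pt | Suz.Tab.labFive i = 2} ∧
      {v | v ∈ S.orb S.c ∧ S.R S.b v}.ncard = 315 ∧
      {v | v ∈ S.orb S.b ∧ S.R S.c v}.ncard = 96 := by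
  classical
  set X : Set Ω := {v | v ∈ S.orb S.b ∧ S.R S.b v}
  set W : Set Ω := {v | v ∈ S.orb S.c ∧ S.R S.b v}
  have hq := S.fix_b hS
  have hinj := S.injOn_map hf hq
  have hbb : S.b ∈ S.orb S.b := MulAction.mem_orbit_self _
  have hfb : f S.b = Suz.P1 := by simpa using hf 1
  have hXc : (f '' X).ncard = X.ncard := Set.ncard_image_of_injOn (hinj.mono fun v hv => hv.1)
  have hcases := five_cases (Y := f '' X)
    (by rintro _ ⟨v, hv, rfl⟩; rw [S.lab_map hf hv.1]; exact lab6_P1)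
    (by
      rintro ⟨v, hv, e⟩
      rw [← hfb] at e
      rw [hinj hv.1 hbb e] at hv
      exact S.R_irrefl _ hv.2)
    (by rw [← hS]; exact S.image_invariant hf hq)
  have hab : S.R S.b S.a := S.R_symm.1 ((S.R_base _).2 hbb)
  have ha1 : S.a ∉ S.orb S.b := fun h => S.R_irrefl _ ((S.R_base _).2 h)
  have ha2 : S.a ∉ S.orb S.c := by
    intro h
    have e : (S.orb S.c).ncard = 1365 := S.hc
    rw [show S.orb S.c = S.orb S.a from (MulAction.orbit_eq_iff.2 h).symm] at e
    have : S.orb S.a = {S.a} := Set.eq_singleton_iff_unique_mem.2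
      ⟨MulAction.mem_orbit_self _, fun y ⟨g, hg⟩ => hg ▸ (S.mem_Ga.1 g.2).2⟩
    rw [this, Set.ncard_singleton] at e
    omega
  have hbc : Disjoint (S.orb S.b) (S.orb S.c) := Set.disjoint_left.2 fun v h1 h2 => by
    have e : (S.orb S.b).ncard = (S.orb S.c).ncard := by
      rw [orb, orb, ← MulAction.orbit_eq_iff.2 h1, ← MulAction.orbit_eq_iff.2 h2]
    rw [orb, orb, S.hb, S.hc] at e
    omega
  have hsplit : {v | S.R S.b v} = insert S.a (X ∪ W) := by
    ext v
    constructor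
    · intro h
      rcases S.trichotomy v with rfl | hv | hv
      exacts [Or.inl rfl, Or.inr (Or.inl ⟨hv, h⟩), Or.inr (Or.inr ⟨hv, h⟩)]
    · rintro (rfl | h | h)
      exacts [hab, h.2, h.2]
  have hsum : X.ncard + W.ncard = 415 := by
    have := S.ncard_nbrs S.b
    rw [hsplit, Set.ncard_insert_of_notMem (fun h => h.elim (fun h => ha1 h.1) fun h => ha2 h.1),
      Set.ncard_union_eq (hbc.mono (fun v hv => hv.1) (fun v hv => hv.1))] at this
    omega
  -- double counting
  set D1 : Finset Ω := (S.orb S.b).toFinset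
  set D2 : Finset Ω := (S.orb S.c).toFinset
  have hD1 : D1.card = 416 := by
    rw [← Set.ncard_eq_toFinset_card']; exact S.hb
  have hD2 : D2.card = 1365 := by
    rw [← Set.ncard_eq_toFinset_card']; exact S.hc
  have hrow : ∀ u ∈ D1, (D2.filter fun v => S.R u v).card = W.ncard := by
    intro u hu
    obtain ⟨g, rfl⟩ := S.mem_orb.1 (Set.mem_toFinset.1 hu)
    rw [← Set.ncard_coe_finset, ← Set.ncard_image_of_injective W (g : Equiv.Perm Ω).injective]
    congr 1
    ext v
    simp only [Finset.coe_filter, D2, Set.mem_toFinset, Set.mem_ofPred_eq, Set.mem_image]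
    constructor
    · rintro ⟨hv, hR⟩
      refine ⟨(g : Equiv.Perm Ω)⁻¹ v, ⟨?_, ?_⟩, by simp⟩
      · rw [← S.orb_invariant g]; simpa using hv
      · rw [← S.R_Ga g]; simpa using hR
    · rintro ⟨w, ⟨hw, hR⟩, rfl⟩
      exact ⟨(S.orb_invariant g _).2 hw, (S.R_Ga g _ _).2 hR⟩
  set V : Set Ω := {v | v ∈ S.orb S.b ∧ S.R S.c v}
  have hcol : ∀ v ∈ D2, (D1.filter fun u => S.R u v).card = V.ncard := by
    intro v hv
    obtain ⟨g, rfl⟩ := S.mem_orb.1 (Set.mem_toFinset.1 hv)
    rw [← Set.ncard_coe_finset, ← Set.ncard_image_of_injective V (g : Equiv.Perm Ω).injective]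
    congr 1
    ext u
    simp only [Finset.coe_filter, D1, Set.mem_toFinset, Set.mem_ofPred_eq, Set.mem_image]
    constructor
    · rintro ⟨hu, hR⟩
      refine ⟨(g : Equiv.Perm Ω)⁻¹ u, ⟨?_, ?_⟩, by simp⟩
      · rw [← S.orb_invariant g]; simpa using hu
      · rw [S.R_symm, ← S.R_Ga g]; simpa using hR
    · rintro ⟨w, ⟨hw, hR⟩, rfl⟩
      exact ⟨(S.orb_invariant g _).2 hw, (S.R_Ga g _ _).2 (S.R_symm.1 hR)⟩
  have hdc : 416 * W.ncard = 1365 * V.ncard := by
    have e := Finset.sum_card_bipartiteAbove_eq_sum_card_bipartiteBelow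
      (r := fun u v => S.R u v) (s := D1) (t := D2)
    simp only [Finset.bipartiteAbove, Finset.bipartiteBelow] at e
    rw [Finset.sum_congr rfl hrow, Finset.sum_congr rfl hcol] at e
    simpa [hD1, hD2] using e
  rcases hcases with h | ⟨h, he⟩ | h | h <;> rw [hXc] at h
  · omega
  · exact ⟨he, by omega, by omega⟩
  · omega
  · exfalso
    have hW : W = ∅ := (Set.ncard_eq_zero (Set.toFinite _)).1 (by omega)
    have hclique : ∀ {v}, S.R S.b v → v = S.a ∨ v ∈ S.orb S.b := fun {v} hv => by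
      have : v ∈ insert S.a (X ∪ W) := hsplit ▸ hv
      rw [hW, Set.union_empty] at this
      rcases this with h | h
      exacts [Or.inl h, Or.inr h.1]
    have hbase : ∀ u v, S.R S.a u → S.R u v → v = S.a ∨ S.R S.a v := by
      intro u v hu huv
      obtain ⟨g, rfl⟩ := S.mem_orb.1 ((S.R_base u).1 hu)
      have hga : (g : Equiv.Perm Ω) S.a = S.a := (S.mem_Ga.1 g.2).2
      have h1 : S.R S.b ((g : Equiv.Perm Ω)⁻¹ v) := by rw [← S.R_Ga g]; simpa using huv
      rcases hclique h1 with h | h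
      · left
        rw [← hga, ← h]; simp
      · right
        rw [S.R_base, ← S.orb_invariant g⁻¹]
        exact h
    let E : Setoid Ω := ⟨fun u v => u = v ∨ S.R u v, ⟨fun u => Or.inl rfl,
      fun {u v} h => h.elim (fun h => Or.inl h.symm) fun h => Or.inr (S.R_symm.1 h),
      fun {u v w} h1 h2 => by
        rcases h1 with rfl | h1
        · exact h2
        rcases h2 with rfl | h2
        · exact Or.inr h1
        obtain ⟨g, hg, rfl⟩ := S.trans S.a u
        have e1 : S.R S.a (g⁻¹ v) := by rw [← S.R_map hg]; simpa using h1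
        have e2 : S.R (g⁻¹ v) (g⁻¹ w) := by rw [← S.R_map hg]; simpa using h2
        rcases hbase _ _ e1 e2 with h | h
        · left
          rw [← h]; simp
        · right
          rw [← S.R_map hg] at h
          simpa using h⟩⟩
    have hfib : ∀ q ∈ (Finset.univ : Finset Ω).image (Quotient.mk E),
        ((Finset.univ : Finset Ω).filter fun v => Quotient.mk E v = q).card = 417 := by
      intro q hq'
      obtain ⟨u, -, rfl⟩ := Finset.mem_image.1 hq'
      rw [← Set.ncard_coe_finset]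
      have : (↑((Finset.univ : Finset Ω).filter fun v => Quotient.mk E v = Quotient.mk E u) : Set Ω) =
          insert u {v | S.R u v} := by
        ext v
        simp only [Finset.coe_filter, Finset.mem_univ, true_and, Set.mem_ofPred_eq, Set.mem_insert_iff,
          Quotient.eq]
        constructor
        · rintro (rfl | h)
          exacts [Or.inl rfl, Or.inr (S.R_symm.1 h)]
        · rintro (rfl | h)
          exacts [Or.inl rfl, Or.inr (S.R_symm.1 h)]
      rw [this, Set.ncard_insert_of_notMem (show u ∉ {v | S.R u v} from S.R_irrefl u), S.ncard_nbrs]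
    have := Finset.card_eq_sum_card_image (Quotient.mk E) (Finset.univ : Finset Ω)
    rw [Finset.sum_congr rfl hfib, Finset.card_univ, S.card_univ, Finset.sum_const,
      smul_eq_mul] at this
    omega

end Setting

end CfsgLib.SuzRankThree5
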