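import Cfsg.Agent.SuzRankThree5.Counting

/-! The isomorphism of the orbital graph with the model, and of the group with the Suzuki group. -/

set_option autoImplicit false

namespace CfsgLib.SuzRankThree5

open CfsgLib.CosetEnum CfsgLib.CosetEnum.Suz

namespace Setting

variable {Ω : Type*} [Fintype Ω] [DecidableEq Ω] (S : Setting Ω)

theorem exists_chart (hS : S.img S.b = JJ) :
    ∃ φ : Ω ≃ Pt, ∀ u v, S.R u v ↔ Adj (φ u) (φ v) := by
  classical
  have hq1 := S.fix_b hS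
  obtain ⟨f1, hf1⟩ := S.exists_map hq1
  obtain ⟨hX, hW, hV⟩ := S.ncard_common hS f1 hf1
  set Y : Set Pt := f1 '' {v | v ∈ S.orb S.b ∧ S.R S.c v}
  have hinj1 := S.injOn_map hf1 hq1
  have hYn : Y.ncard = 96 := by
    rw [Set.ncard_image_of_injOn (hinj1.mono fun v hv => hv.1)]; exact hV
  have hYl : ∀ i ∈ Y, Suz.Tab.labSix i = 1 := by
    rintro _ ⟨v, hv, rfl⟩; rw [S.lab_map hf1 hv.1]; exact lab6_P1
  have hYinv := S.image_invariant (y := S.c) hf1 hq1
  obtain ⟨m, hm, hmc⟩ := class_two (S.img_le S.c) (by rw [S.card_img, S.card_stab_c]) Y hYl hYn hYinv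
  have hq2 := fun g => S.fix_iff_of_img (x := S.c) (q := Y0) hm hmc (fun k => mem_PY) g
  obtain ⟨f2, hf2⟩ := S.exists_map hq2
  have hinj2 := S.injOn_map hf2 hq2
  set p2 : Pt := m Y0
  have hlab2 : Suz.Tab.labSix (p2 : Pt) = 2 := (lab_of_mem hm _).trans lab_Y0
  have hlab0 : Suz.Tab.labSix (P0 : Pt) = 0 := by rw [pt_val]; decide +kernel
  have hmr : m ∈ pi.range := MM_le_range hm
  -- adjacency from a point of the larger suborbit
  have hYadj : ∀ i : Pt, i ∈ Y ↔ Suz.Tab.labSix i = 1 ∧ Adj p2 i := by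
    intro i
    have h := PY_set_one (Y := {j | m j ∈ Y})
      (fun j hj => (lab_of_mem hm j).symm.trans (hYl _ hj))
      (by
        rw [← hYn, ← Set.ncard_image_of_injective _ m.injective]
        congr 1
        ext j
        exact ⟨fun ⟨k, hk, e⟩ => e ▸ hk,
          fun hj => ⟨m⁻¹ j, by show m (m⁻¹ j) ∈ Y; rw [show m (m⁻¹ j) = j by simp]; exact hj, by simp⟩⟩)
      (fun h hh j => by
        have hk : m * h * m⁻¹ ∈ S.img S.c := hmc ▸ conj_mem_cj hh
        have h' := hYinv _ hk (m j)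
        rw [Equiv.Perm.mul_apply, Equiv.Perm.mul_apply, show m⁻¹ (m j) = j by simp] at h'
        exact h')
      (m⁻¹ i)
    simp only [Set.mem_ofPred_eq, Equiv.Perm.coe_inv, Equiv.apply_symm_apply] at h
    have e : m⁻¹ i = m.symm i := rfl
    rw [h, ← adj_map hmr Y0, Equiv.apply_symm_apply, ← e,
      lab_of_mem (inv_mem hm)]
  -- the neighbours in the larger suborbit
  set Z : Set Pt := f2 '' {v | v ∈ S.orb S.c ∧ S.R S.c v}
  have hZn : {v | v ∈ S.orb S.c ∧ S.R S.c v}.ncard = 320 := by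
    have h := S.ncard_nbrs S.c
    have hca : ¬ S.R S.c S.a := fun h => by
      have h' := (S.R_base _).1 (S.R_symm.1 h)
      have e : (S.orb S.b).ncard = (S.orb S.c).ncard := by
        rw [orb, orb, ← MulAction.orbit_eq_iff.2 h']
      rw [orb, orb, S.hb, S.hc] at e
      omega
    have hsplit : {v | S.R S.c v} =
        {v | v ∈ S.orb S.b ∧ S.R S.c v} ∪ {v | v ∈ S.orb S.c ∧ S.R S.c v} := by
      ext v
      constructor
      · intro h
        rcases S.trichotomy v with rfl | hv | hv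
        exacts [absurd h hca, Or.inl ⟨hv, h⟩, Or.inr ⟨hv, h⟩]
      · rintro (h | h) <;> exact h.2
    have hd : Disjoint (S.orb S.b) (S.orb S.c) := Set.disjoint_left.2 fun v h1 h2 => by
      have e : (S.orb S.b).ncard = (S.orb S.c).ncard := by
        rw [orb, orb, ← MulAction.orbit_eq_iff.2 h1, ← MulAction.orbit_eq_iff.2 h2]
      rw [orb, orb, S.hb, S.hc] at e
      omega
    rw [hsplit, Set.ncard_union_eq (hd.mono (fun v hv => hv.1) (fun v hv => hv.1)), hV] at h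
    omega
  have hZinv := S.image_invariant (y := S.c) hf2 hq2
  have hZl : ∀ i ∈ Z, Suz.Tab.labSix i = 2 := by
    rintro _ ⟨v, hv, rfl⟩; rw [S.lab_map hf2 hv.1]; exact hlab2
  have hZadj : ∀ i : Pt, i ∈ Z ↔ Suz.Tab.labSix i = 2 ∧ Adj p2 i := by
    intro i
    have h := PY_set_two (Y := {j | m j ∈ Z})
      (fun j hj => (lab_of_mem hm j).symm.trans (hZl _ hj))
      (by
        rw [← hZn, ← Set.ncard_image_of_injOn (hinj2.mono fun v hv => hv.1),
          ← Set.ncard_image_of_injective {j | m j ∈ Z} m.injective]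
        congr 1
        ext j
        exact ⟨fun ⟨k, hk, e⟩ => e ▸ hk,
          fun hj => ⟨m⁻¹ j, by show m (m⁻¹ j) ∈ Z; rw [show m (m⁻¹ j) = j by simp]; exact hj, by simp⟩⟩)
      (fun h hh j => by
        have hk : m * h * m⁻¹ ∈ S.img S.c := hmc ▸ conj_mem_cj hh
        have h' := hZinv _ hk (m j)
        rw [Equiv.Perm.mul_apply, Equiv.Perm.mul_apply, show m⁻¹ (m j) = j by simp] at h'
        exact h')
      (m⁻¹ i)
    simp only [Set.mem_ofPred_eq, Equiv.Perm.coe_inv, Equiv.apply_symm_apply] at h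
    have e : m⁻¹ i = m.symm i := rfl
    rw [h, ← adj_map hmr Y0, Equiv.apply_symm_apply, ← e,
      lab_of_mem (inv_mem hm)]
  -- the bijection
  let φ : Ω → Pt := fun x => if x = S.a then P0 else if x ∈ S.orb S.b then f1 x else f2 x
  have hga : ∀ g : ↥S.Ga, (g : Equiv.Perm Ω) S.a = S.a := fun g => (S.mem_Ga.1 g.2).2
  have hab : S.a ∉ S.orb S.b := fun h => S.R_irrefl _ ((S.R_base _).2 h)
  have hcb : ∀ x ∈ S.orb S.c, x ≠ S.a ∧ x ∉ S.orb S.b := by
    intro x hx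
    refine ⟨fun e => ?_, fun h => ?_⟩
    · obtain ⟨g, hg⟩ := S.mem_orb.1 hx
      have hca : S.c = S.a :=
        (g : Equiv.Perm Ω).injective (hg.trans (e.trans (hga g).symm))
      have := S.hc
      rw [hca, show MulAction.orbit S.Ga S.a = {S.a} from Set.eq_singleton_iff_unique_mem.2
        ⟨MulAction.mem_orbit_self _, fun y ⟨k, hk⟩ => hk ▸ (S.mem_Ga.1 k.2).2⟩,
        Set.ncard_singleton] at this
      omega
    · have e : (S.orb S.b).ncard = (S.orb S.c).ncard := by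
        rw [orb, orb, ← MulAction.orbit_eq_iff.2 h, ← MulAction.orbit_eq_iff.2 hx]
      rw [orb, orb, S.hb, S.hc] at e
      omega
  have φa : φ S.a = P0 := if_pos rfl
  have φ1 : ∀ x ∈ S.orb S.b, φ x = f1 x := fun x hx => by
    show ite _ _ _ = _
    rw [if_neg (fun e : x = S.a => hab (e ▸ hx)), if_pos hx]
  have φ2 : ∀ x ∈ S.orb S.c, φ x = f2 x := fun x hx => by
    show ite _ _ _ = _
    rw [if_neg (hcb x hx).1, if_neg (hcb x hx).2]
  have hlab : ∀ x, (x = S.a ∧ Suz.Tab.labSix (φ x : Pt) = 0) ∨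
      (x ∈ S.orb S.b ∧ Suz.Tab.labSix (φ x : Pt) = 1) ∨
      (x ∈ S.orb S.c ∧ Suz.Tab.labSix (φ x : Pt) = 2) := by
    intro x
    rcases S.trichotomy x with rfl | hx | hx
    · exact Or.inl ⟨rfl, by rw [φa]; exact hlab0⟩
    · exact Or.inr (Or.inl ⟨hx, by rw [φ1 x hx, S.lab_map hf1 hx]; exact lab6_P1⟩)
    · exact Or.inr (Or.inr ⟨hx, by rw [φ2 x hx, S.lab_map hf2 hx]; exact hlab2⟩)
  have hφinj : Function.Injective φ := by
    intro x y e
    rcases hlab x with ⟨rfl, hx⟩ | ⟨hxo, hx⟩ | ⟨hxo, hx⟩ <;>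
      rcases hlab y with ⟨rfl, hy⟩ | ⟨hyo, hy⟩ | ⟨hyo, hy⟩
    all_goals first
      | rfl
      | (rw [e] at hx; omega)
      | (rw [φ1 x hxo, φ1 y hyo] at e; exact hinj1 hxo hyo e)
      | (rw [φ2 x hxo, φ2 y hyo] at e; exact hinj2 hxo hyo e)
  have hequiv : ∀ (g : ↥S.Ga) (x : Ω), φ ((g : Equiv.Perm Ω) x) = S.th g (φ x) := by
    intro g x
    rcases S.trichotomy x with rfl | hx | hx
    · rw [hga, φa]; exact (mem_MM_iff.1 (S.th_mem g)).2.symm
    · rw [φ1 _ ((S.orb_invariant g x).2 hx), φ1 x hx]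
      obtain ⟨k, rfl⟩ := S.mem_orb.1 hx
      rw [hf1 k, ← Equiv.Perm.mul_apply, ← Equiv.Perm.mul_apply, ← map_mul, ← hf1 (g * k)]
      rfl
    · rw [φ2 _ ((S.orb_invariant g x).2 hx), φ2 x hx]
      obtain ⟨k, rfl⟩ := S.mem_orb.1 hx
      rw [hf2 k, ← Equiv.Perm.mul_apply, ← Equiv.Perm.mul_apply, ← map_mul, ← hf2 (g * k)]
      rfl
  have hbij : Function.Bijective φ := (Fintype.bijective_iff_injective_and_card φ).2
    ⟨hφinj, by rw [S.card_univ, Fintype.card_fin]; rfl⟩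
  have hφb : φ S.b = Suz.P1 := by
    rw [φ1 _ (MulAction.mem_orbit_self _)]; simpa using hf1 1
  have hφc : φ S.c = p2 := by
    rw [φ2 _ (MulAction.mem_orbit_self _)]; simpa using hf2 1
  have Ha : ∀ v, S.R S.a v ↔ Adj (φ S.a) (φ v) := by
    intro v
    rw [φa, adj_zero, S.R_base]
    rcases hlab v with ⟨rfl, h⟩ | ⟨hv, h⟩ | ⟨hv, h⟩
    · exact iff_of_false hab (by rw [h]; decide)
    · exact iff_of_true hv h
    · exact iff_of_false (hcb v hv).2 (by rw [h]; decide)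
  have Hc : ∀ v, S.R S.c v ↔ Adj (φ S.c) (φ v) := by
    intro v
    rcases hlab v with ⟨rfl, h⟩ | ⟨hv, h⟩ | ⟨hv, h⟩
    · rw [S.R_symm, Ha, adj_symm]
    · rw [hφc, φ1 v hv]
      have := hYadj (f1 v)
      rw [← φ1 v hv, h] at this
      simp only [true_and] at this
      rw [← φ1 v hv, ← this, φ1 v hv]
      constructor
      · exact fun hR => ⟨v, ⟨hv, hR⟩, rfl⟩
      · rintro ⟨w, ⟨hw, hR⟩, e⟩
        exact hinj1 hw hv e ▸ hR
    · rw [hφc, φ2 v hv]
      have := hZadj (f2 v)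
      rw [← φ2 v hv, h] at this
      simp only [true_and] at this
      rw [← φ2 v hv, ← this, φ2 v hv]
      constructor
      · exact fun hR => ⟨v, ⟨hv, hR⟩, rfl⟩
      · rintro ⟨w, ⟨hw, hR⟩, e⟩
        exact hinj2 hw hv e ▸ hR
  have move : ∀ {u : Ω}, (∀ v, S.R u v ↔ Adj (φ u) (φ v)) → ∀ (g : ↥S.Ga) (v : Ω),
      S.R ((g : Equiv.Perm Ω) u) v ↔ Adj (φ ((g : Equiv.Perm Ω) u)) (φ v) := by
    intro u hu g v
    obtain ⟨w, rfl⟩ : ∃ w, (g : Equiv.Perm Ω) w = v := (g : Equiv.Perm Ω).surjective v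
    rw [S.R_Ga, hu, hequiv, hequiv, adj_map (MM_le_range (S.th_mem g))]
  have Hb : ∀ v, S.R S.b v ↔ Adj (φ S.b) (φ v) := by
    intro v
    rcases hlab v with ⟨rfl, h⟩ | ⟨hv, h⟩ | ⟨hv, h⟩
    · rw [S.R_symm, Ha, adj_symm]
    · rw [hφb, φ1 v hv]
      rw [φ1 v hv] at h
      rw [adj_P1 h]
      have := Set.ext_iff.1 hX (f1 v)
      rw [Set.mem_ofPred_eq] at this
      rw [← this]
      constructor
      · exact fun hR => ⟨v, ⟨hv, hR⟩, rfl⟩
      · rintro ⟨w, ⟨hw, hR⟩, e⟩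
        exact hinj1 hw hv e ▸ hR
    · obtain ⟨g, rfl⟩ := S.mem_orb.1 hv
      rw [S.R_symm, move Hc g, adj_symm]
  refine ⟨Equiv.ofBijective φ hbij, fun u v => ?_⟩
  show S.R u v ↔ Adj (φ u) (φ v)
  rcases S.trichotomy u with rfl | hu | hu
  · exact Ha v
  · obtain ⟨g, rfl⟩ := S.mem_orb.1 hu
    exact move Hb g v
  · obtain ⟨g, rfl⟩ := S.mem_orb.1 hu
    exact move Hc g v

theorem iso_range (hS : S.img S.b = JJ) : Nonempty (↥S.G ≃* ↥pi.range) := by
  obtain ⟨φ, hφ⟩ := S.exists_chart hS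
  let Φ : Equiv.Perm Ω ≃* P := φ.permCongrHom
  have hle : S.G.map Φ.toMonoidHom ≤ AutG := by
    rintro _ ⟨g, hg, rfl⟩ i j
    show Adj (φ (g (φ.symm i))) (φ (g (φ.symm j))) ↔ Adj i j
    rw [← hφ, S.R_map hg, hφ, Equiv.apply_symm_apply, Equiv.apply_symm_apply]
  let e : ↥S.G ≃* ↥(S.G.map Φ.toMonoidHom) := Φ.subgroupMap S.G
  have hc : Nat.card (S.G.map Φ.toMonoidHom) = 448345497600 := by
    rw [← Nat.card_congr e.toEquiv, S.card_G]
  exact ⟨e.trans (MulEquiv.subgroupCongr (eq_range hle hc))⟩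

end Setting

end CfsgLib.SuzRankThree5
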