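import Cfsg.Agent.SuzRankThree5.ChecksGraph
import Cfsg.Agent.SuzRankThree5.ClassTwo

/-!
The orbital graph on 1782 points, the bound on its automorphisms, and the recognition of the
Suzuki group among groups of automorphisms.
-/

set_option autoImplicit false
set_option maxRecDepth 100000

namespace CfsgLib.SuzRankThree5

open CfsgLib.CosetEnum CfsgLib.CosetEnum.Suz

/-- adjacency: the stabiliser of the two points has index 416 in that of a point -/
def Adj (i j : Pt) : Prop := Nat.card (pointStab pi.range [i, j]) = 604800

theorem adj_symm {i j : Pt} : Adj i j ↔ Adj j i := by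
  have : pointStab pi.range [i, j] = pointStab pi.range [j, i] := by
    ext g
    simp only [mem_pointStab, List.mem_cons, List.not_mem_nil, or_false, forall_eq_or_imp,
      forall_eq]
    tauto
  rw [Adj, Adj, this]

theorem adj_map {g : P} (hg : g ∈ pi.range) (i j : Pt) : Adj (g i) (g j) ↔ Adj i j := by
  have : pointStab pi.range [g i, g j] = cj g (pointStab pi.range [i, j]) := by
    ext h
    simp only [mem_cj, mem_pointStab, List.mem_cons, List.not_mem_nil, or_false, forall_eq_or_imp,
      forall_eq, Equiv.Perm.mul_apply]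
    have : h ∈ pi.range ↔ g⁻¹ * h * g ∈ pi.range :=
      ⟨fun hh => mul_mem (mul_mem (inv_mem hg) hh) hg,
        fun hh => by simpa [mul_assoc] using mul_mem (mul_mem hg hh) (inv_mem hg)⟩
    rw [this, Equiv.Perm.inv_eq_iff_eq, Equiv.Perm.inv_eq_iff_eq]
  rw [Adj, Adj, this, card_cj]

theorem countLabel_zero : countLabel Suz.Tab.labSix 0 1782 = 1 := by decide +kernel

theorem adj_zero (j : Pt) : Adj P0 j ↔ Suz.Tab.labSix (j : Pt) = 1 := by
  have hcomm : pointStab pi.range [P0, j] = pointStab pi.range [j, P0] := by
    ext g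
    simp only [mem_pointStab, List.mem_cons, List.not_mem_nil, or_false, forall_eq_or_imp,
      forall_eq]
    tauto
  have h := card_pointStab_eq pi.range [P0] j
  rw [stab_zero] at h
  have hsplit := (Model.allBelow_iff _ _).1 split_six j j.2
  simp only [Bool.and_eq_true, Bool.or_eq_true, beq_iff_eq] at hsplit
  rw [Adj, hcomm]
  rcases hsplit with (⟨hl, -⟩ | hl) | hl
  · rw [ncard_orbit_six hl (countLabel_zero), card_MM] at h
    have h' : 1 * Nat.card (pointStab pi.range [j, P0]) = 251596800 := h
    omega
  · rw [ncard_orbit_six hl count_six1, card_MM] at h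
    have h' : 416 * Nat.card (pointStab pi.range [j, P0]) = 251596800 := h
    omega
  · rw [ncard_orbit_six hl count_six2, card_MM] at h
    have h' : 1365 * Nat.card (pointStab pi.range [j, P0]) = 251596800 := h
    omega

theorem row_adj {k : ℕ} (hk : k < 28) (j : Pt) :
    Adj (ptM (rowPts.getD k 0)) j ↔ rowBit k j = true := by
  have h := (Model.allBelow_iff _ _).1 row_ok k hk
  simp only [rowOK, Bool.and_eq_true, Model.allBelow_iff, Nat.blt, Nat.ble_eq, beq_iff_eq] at h
  obtain ⟨⟨⟨hok, hlt⟩, h0⟩, hall⟩ := h
  set t := rowWords.getD k []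
  have hm : (el t)⁻¹ (ptM (rowPts.getD k 0)) = P0 := by
    rw [inv_ptM hok hlt, h0]
    rfl
  rw [← adj_map (inv_mem (el_mem_range hok)), hm, adj_zero, hall j j.2, el_inv_val hok,
    beq_iff_eq]

/-- the automorphisms of the graph -/
noncomputable def AutG : Subgroup P where
  carrier := {g | ∀ i j, Adj (g i) (g j) ↔ Adj i j}
  one_mem' := fun _ _ => Iff.rfl
  mul_mem' := fun {a b} ha hb i j => (ha _ _).trans (hb i j)
  inv_mem' := fun {a} ha i j => by simpa using (ha (a⁻¹ i) (a⁻¹ j)).symm

theorem range_le_AutG : pi.range ≤ AutG := fun _ hg i j => adj_map hg i j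

/-- a base point -/
noncomputable def bp (k : ℕ) : Pt := ptM (autBase.getD k 0)

/-- the first base points, latest first -/
noncomputable def bps (k : ℕ) : List Pt := Nat.rec [] (fun i r => bp i :: r) k

theorem mem_bps {k i : ℕ} (h : i < k) : bp i ∈ bps k := by
  induction k with
  | zero => omega
  | succ k ih =>
    rcases Nat.lt_succ_iff_lt_or_eq.1 h with h | rfl
    exacts [List.mem_cons_of_mem _ (ih h), List.mem_cons_self]

theorem class_data {k : ℕ} (hk : k < 27) : classSize k = autSize.getD k 0 ∧
    rowPts.getD k 0 = autBase.getD k 0 ∧ autBase.getD k 0 < 1782 := by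
  have h := (Model.allBelow_iff _ _).1 class_ok k hk
  simp only [classOK, Bool.and_eq_true, beq_iff_eq, Nat.blt, Nat.ble_eq, Nat.beq_eq] at h
  exact ⟨h.1.1, h.1.2, h.2⟩

theorem pat_inv {k : ℕ} (hk : k ≤ 27) {g : P} (hg : g ∈ pointStab AutG (bps k)) (x : Pt) :
    patN k (g x : Pt) = patN k x := by
  obtain ⟨hA, hfix⟩ := mem_pointStab.1 hg
  induction k with
  | zero => rfl
  | succ k ih =>
    obtain ⟨-, hrow, hlt⟩ := class_data (show k < 27 by omega)
    have hb : g (bp k) = bp k := hfix _ (mem_bps (Nat.lt_succ_self k))
    have hsub : g ∈ pointStab AutG (bps k) :=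
      mem_pointStab.2 ⟨hA, fun p hp => hfix p (List.mem_cons_of_mem _ hp)⟩
    have ih' := ih (by omega) hsub (fun p hp => hfix p (List.mem_cons_of_mem _ hp))
    show 4 * patN k (g x : Pt) + _ + _ = 4 * patN k x + _ + _
    have e1 : Nat.beq ((g x : Pt) : ℕ) (autBase.getD k 0) =
        Nat.beq (x : Pt) (autBase.getD k 0) := by
      rw [Bool.eq_iff_iff, Nat.beq_eq, Nat.beq_eq, ← ptM_val hlt, ← Fin.ext_iff, ← Fin.ext_iff]
      change g x = bp k ↔ x = bp k
      exact ⟨fun h => g.injective (h.trans hb.symm), fun h => h ▸ hb⟩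
    have e2 : rowBit k (g x : Pt) = rowBit k (x : Pt) := by
      rw [Bool.eq_iff_iff, ← row_adj (by omega : k < 28), ← row_adj (by omega : k < 28), hrow]
      change Adj (bp k) (g x) ↔ Adj (bp k) x
      conv_lhs => rw [← hb]
      exact hA _ _
    rw [ih', e1, e2]

theorem patN_27_inj {x y : Pt} (h : patN 27 x = patN 27 y) : x = y := by
  have hs := fun j (hj : j < 1782) => (Model.allBelow_iff _ _).1 sort_ok j hj
  simp only [sortOK, Bool.and_eq_true, Bool.or_eq_true, beq_iff_eq, Nat.blt, Nat.ble_eq] at hs
  have hmono : ∀ d a, a + d < 1782 →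
      patN 27 (slot sortTab 11 a) ≤ patN 27 (slot sortTab 11 (a + d)) ∧
        (0 < d → patN 27 (slot sortTab 11 a) < patN 27 (slot sortTab 11 (a + d))) := by
    intro d
    induction d with
    | zero => exact fun a _ => ⟨le_rfl, fun h => absurd h (lt_irrefl _)⟩
    | succ d ih =>
      intro a hlt
      obtain ⟨h1, -⟩ := ih a (by omega)
      have h2 := (hs (a + (d + 1)) hlt).2.resolve_left (by omega)
      rw [show a + (d + 1) - 1 = a + d by omega] at h2
      exact ⟨h1.trans (Nat.le_of_lt h2), fun _ => lt_of_le_of_lt h1 h2⟩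
  have hx := (hs x x.2).1
  have hy := (hs y y.2).1
  rw [← hx.2, ← hy.2] at h
  apply Fin.ext
  rw [← hx.2, ← hy.2]
  rcases lt_trichotomy (slot rankTab 11 x) (slot rankTab 11 y) with hl | he | hl
  · have := (hmono (slot rankTab 11 y - slot rankTab 11 x) (slot rankTab 11 x) (by omega)).2
      (by omega)
    rw [show slot rankTab 11 x + (slot rankTab 11 y - slot rankTab 11 x) = slot rankTab 11 y by
      omega, h] at this
    exact absurd this (lt_irrefl _)
  · rw [he]
  · have := (hmono (slot rankTab 11 x - slot rankTab 11 y) (slot rankTab 11 y) (by omega)).2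
      (by omega)
    rw [show slot rankTab 11 y + (slot rankTab 11 x - slot rankTab 11 y) = slot rankTab 11 x by
      omega, h] at this
    exact absurd this (lt_irrefl _)

theorem classSize_eq (k : ℕ) : classSize k =
    ((Finset.range 1782).filter fun x => patN k x = patN k (autBase.getD k 0)).card := by
  unfold classSize
  dsimp only
  generalize patN k (autBase.getD k 0) = v
  induction 1782 with
  | zero => rfl
  | succ n ih =>
    rw [Finset.range_add_one, Finset.filter_insert]
    cases hb : Nat.beq (patN k n) v
    · have hne : ¬ patN k n = v := fun e => by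
        rw [e, Nat.beq_refl] at hb; exact Bool.noConfusion hb
      simp only [hb, if_neg hne]
      exact ih
    · simp only [hb, if_pos (Nat.eq_of_beq_eq_true hb)]
      rw [Finset.card_insert_of_notMem (by simp)]
      exact congrArg (· + 1) ih

theorem card_AutG_le : Nat.card AutG ≤ 896690995200 := by
  classical
  have step : ∀ k ≤ 27, Nat.card AutG ≤
      ((List.range k).map fun i => autSize.getD i 0).prod *
        Nat.card (pointStab AutG (bps k)) := by
    intro k
    induction k with
    | zero => intro _; simp [bps, pointStab]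
    | succ k ih =>
      intro hk
      obtain ⟨hsz, -, hlt⟩ := class_data (show k < 27 by omega)
      refine (ih (by omega)).trans ?_
      rw [List.range_succ, List.map_append, List.prod_append, List.map_singleton,
        List.prod_singleton, mul_assoc]
      refine Nat.mul_le_mul_left _ ?_
      have horb : (MulAction.orbit (pointStab AutG (bps k)) (bp k)).ncard ≤ autSize.getD k 0 := by
        rw [← hsz, classSize_eq, ← Set.ncard_coe_finset]
        refine Set.ncard_le_ncard_of_injOn (fun i : Pt => (i : ℕ)) ?_ ?_ (Finset.finite_toSet _)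
        · rintro _ ⟨⟨g, hg⟩, rfl⟩
          refine Finset.mem_coe.2 (Finset.mem_filter.2 ⟨Finset.mem_range.2 (g (bp k) : Pt).2, ?_⟩)
          show patN k (g (bp k) : Pt) = _
          rw [pat_inv (by omega) hg, bp, ptM_val hlt]
        · exact fun a _ b _ h => Fin.ext h
      rw [← card_pointStab_eq AutG (bps k) (bp k)]
      exact Nat.mul_le_mul_right _ horb
  have htriv : pointStab AutG (bps 27) = ⊥ := by
    rw [eq_bot_iff]
    intro g hg
    exact Subgroup.mem_bot.2 (Equiv.ext fun x => patN_27_inj (pat_inv le_rfl hg x))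
  have h := step 27 le_rfl
  rw [htriv, prod_sizes, Subgroup.card_bot, mul_one] at h
  exact h

/-- A group of automorphisms of the graph of the order of the Suzuki group is that group. -/
theorem eq_range {G' : Subgroup P} (hle : G' ≤ AutG) (hc : Nat.card G' = 448345497600) :
    G' = pi.range := by
  have hS := range_le_AutG
  have hsimple : IsSimpleGroup pi.range := by
    have := Suz.simple
    have : Finite pi.range := inferInstance
    have : Nontrivial pi.range := Finite.one_lt_card_iff_nontrivial.1 (by
      rw [card_range_eq]; norm_num)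
    exact IsSimpleGroup.isSimpleGroup_of_surjective pi.rangeRestrict pi.rangeRestrict_surjective
  set A := AutG
  have h1 : G'.relIndex A ≤ 2 ∧ G'.relIndex A ≠ 0 := by
    have h := Subgroup.relIndex_mul_relIndex ⊥ G' A bot_le hle
    rw [Subgroup.relIndex_bot_left, Subgroup.relIndex_bot_left, hc] at h
    have hb : 448345497600 * G'.relIndex A ≤ 896690995200 := h.le.trans card_AutG_le
    refine ⟨by omega, fun h0 => ?_⟩
    rw [h0, mul_zero] at h
    exact absurd h.symm Nat.card_pos.ne'
  have h2 : G'.relIndex pi.range ≤ 2 :=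
    (Subgroup.relIndex_le_of_le_right hS h1.2).trans h1.1
  have h3 : G'.relIndex pi.range ≠ 0 := Subgroup.index_ne_zero_of_finite
  have hnormal : (G'.subgroupOf pi.range).Normal := by
    change (G'.subgroupOf pi.range).index ≤ 2 at h2
    change (G'.subgroupOf pi.range).index ≠ 0 at h3
    rcases (show (G'.subgroupOf pi.range).index = 1 ∨ (G'.subgroupOf pi.range).index = 2 by omega)
      with h | h
    · rw [Subgroup.index_eq_one.1 h]; infer_instance
    · exact Subgroup.normal_of_index_eq_two h
  rcases IsSimpleGroup.eq_bot_or_eq_top_of_normal _ hnormal with h | h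
  · exfalso
    change (G'.subgroupOf pi.range).index ≤ 2 at h2
    rw [h, Subgroup.index_bot, card_range_eq] at h2
    omega
  · rw [Subgroup.subgroupOf_eq_top] at h
    exact (Subgroup.eq_of_le_of_card_ge h (by rw [hc, card_range_eq])).symm

end CfsgLib.SuzRankThree5
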