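import Cfsg.Agent.SuzRankThree5.DataTwo
import Cfsg.Agent.SuzRankThree5.Conjugates

/-! Invariant subsets of a suborbit from a certified partition into connected parts. -/

set_option autoImplicit false

namespace CfsgLib.SuzRankThree5

open CfsgLib.CosetEnum CfsgLib.CosetEnum.Suz

namespace PartCert

/-- the point at a position -/
noncomputable def pnt (C : PartCert) (j : ℕ) : ℕ := Nat.land (slot C.T 28 j) 2047

/-- the parent of a position -/
noncomputable def parent (C : PartCert) (j : ℕ) : ℕ := Nat.land (slot C.T 28 j >>> 11) 2047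

/-- the word leading from the parent -/
noncomputable def word (C : PartCert) (j : ℕ) : ℕ := Nat.land (slot C.T 28 j >>> 22) 15

/-- the part of a position -/
noncomputable def part (C : PartCert) (j : ℕ) : ℕ := slot C.T 28 j >>> 26

/-- the position of a point -/
noncomputable def pos (C : PartCert) (i : ℕ) : ℕ := slot C.posT 11 i

/-- check of one position -/
noncomputable def entryOK (C : PartCert) (l : ℕ) (g : List (List ℕ)) (j : ℕ) : Bool :=
  Nat.blt (C.pnt j) 1782 && (Suz.Tab.labSix (C.pnt j) == l) && (C.pos (C.pnt j) == j) &&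
    Nat.blt (C.part j) C.parts &&
    ((C.starts.getD (C.part j) C.n == j) ||
      (Nat.blt (C.parent j) j && (C.part (C.parent j) == C.part j) &&
        (runN (g.getD (C.word j) []) (C.pnt (C.parent j)) == C.pnt j)))

/-- check that a point with the label is listed -/
noncomputable def coverOK (C : PartCert) (l i : ℕ) : Bool :=
  !(Suz.Tab.labSix i == l) || (Nat.blt (C.pos i) C.n && (C.pnt (C.pos i) == i))

/-- all checks -/
noncomputable def allOK (C : PartCert) (l : ℕ) (g : List (List ℕ)) : Bool :=
  allBelow (C.entryOK l g) C.n && allBelow (C.coverOK l) 1782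

/-- the size of a union of parts -/
noncomputable def count (C : PartCert) (m : ℕ) : ℕ :=
  Nat.rec 0 (fun j r => Bool.rec r (r + 1) (m.testBit (C.part j))) C.n

theorem count_eq_card (C : PartCert) (m : ℕ) :
    C.count m = ((Finset.range C.n).filter fun j => m.testBit (C.part j) = true).card := by
  unfold count
  induction C.n with
  | zero => rfl
  | succ n ih =>
    rw [Finset.range_add_one, Finset.filter_insert]
    cases hb : m.testBit (C.part n) <;>
      simp [hb, ih, Finset.card_insert_of_notMem]

/-- An invariant subset of the suborbit is a union of parts. -/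
theorem exists_mask (C : PartCert) {l : ℕ} {g : List (List ℕ)} (h : C.allOK l g = true)
    (hg : ∀ w ∈ g, okW 7 w = true) (Y : Set Pt) (hY : ∀ i ∈ Y, Suz.Tab.labSix i = l)
    (hinv : ∀ w ∈ g, ∀ i, el w i ∈ Y ↔ i ∈ Y) :
    ∃ m < 2 ^ C.parts, (∀ i : Pt, i ∈ Y ↔ Suz.Tab.labSix i = l ∧ m.testBit (C.part (C.pos i)) = true) ∧
      Y.ncard = C.count m := by
  classical
  simp only [allOK, entryOK, coverOK, Bool.and_eq_true, Bool.or_eq_true, Model.allBelow_iff,
    Bool.not_eq_true', Nat.blt, Nat.ble_eq, beq_iff_eq, beq_eq_false_iff_ne] at h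
  obtain ⟨he, hcov⟩ := h
  let q : ℕ → Pt := fun j => ptM (C.pnt j)
  have hq : ∀ j < C.n, ((q j : Pt) : ℕ) = C.pnt j := fun j hj => ptM_val (he j hj).1.1.1.1
  let f : Fin C.parts → Bool := fun b => decide (q (C.starts.getD b C.n) ∈ Y)
  refine ⟨Nat.ofBits f, Nat.ofBits_lt_two_pow f, ?_⟩
  have key : ∀ j < C.n, q j ∈ Y ↔ (Nat.ofBits f).testBit (C.part j) = true := by
    intro j hj
    induction j using Nat.strong_induction_on with
    | _ j ih =>
      obtain ⟨⟨⟨⟨-, -⟩, -⟩, hp⟩, hr⟩ := he j hj
      rcases hr with hr | ⟨⟨hlt, hpe⟩, hrun⟩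
      · rw [Nat.testBit_ofBits_lt f _ hp]
        simp only [f, hr, decide_eq_true_eq]
      · have ih' := ih _ hlt (lt_trans hlt hj)
        rw [hpe] at ih'
        rw [← ih']
        set w := g.getD (C.word j) []
        have hwok : okW 7 w = true ∧ ∀ i, el w i ∈ Y ↔ i ∈ Y := by
          rcases lt_or_ge (C.word j) g.length with hi | hi
          · rw [show w = g.getD (C.word j) [] from rfl, List.getD_eq_getElem _ _ hi]
            exact ⟨hg _ (List.getElem_mem hi), hinv _ (List.getElem_mem hi)⟩
          · rw [show w = g.getD (C.word j) [] from rfl, List.getD_eq_default _ _ hi]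
            exact ⟨okW_iff.2 (by simp), fun i => Iff.rfl⟩
        have hmap : el w (q j) = q (C.parent j) := by
          rw [el_apply_eq_iff hwok.1, hq j hj, hq _ (lt_trans hlt hj)]
          exact hrun
        rw [← hmap]
        exact (hwok.2 _).symm
  have hchar : ∀ i : Pt, i ∈ Y ↔ Suz.Tab.labSix i = l ∧
      (Nat.ofBits f).testBit (C.part (C.pos i)) = true := by
    intro i
    by_cases hl : Suz.Tab.labSix i = l
    · obtain ⟨hlt, hpi⟩ := (hcov i i.2).resolve_left (not_not.2 hl)
      have hqi : q (C.pos i) = i := Fin.ext ((hq _ hlt).trans hpi)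
      rw [← key _ hlt, hqi]
      exact ⟨fun h => ⟨hl, h⟩, fun h => h.2⟩
    · exact ⟨fun h => absurd (hY i h) hl, fun h => absurd h.1 hl⟩
  refine ⟨hchar, ?_⟩
  rw [count_eq_card]
  set F := (Finset.range C.n).filter fun j => (Nat.ofBits f).testBit (C.part j) = true
  have hinj : Set.InjOn q (F : Set ℕ) := by
    intro a ha b hb hab
    have ha' : a < C.n := Finset.mem_range.1 (Finset.mem_filter.1 (Finset.mem_coe.1 ha)).1
    have hb' : b < C.n := Finset.mem_range.1 (Finset.mem_filter.1 (Finset.mem_coe.1 hb)).1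
    have := congrArg (fun i : Pt => C.pos i) hab
    simp only [hq a ha', hq b hb'] at this
    rw [(he a ha').1.1.2, (he b hb').1.1.2] at this
    exact this
  have himg : Y = q '' (F : Set ℕ) := by
    ext i
    constructor
    · intro hi
      obtain ⟨hl, hb⟩ := (hchar i).1 hi
      obtain ⟨hlt, hpi⟩ := (hcov i i.2).resolve_left (not_not.2 hl)
      refine ⟨C.pos i, Finset.mem_coe.2 (Finset.mem_filter.2 ⟨Finset.mem_range.2 hlt, hb⟩),
        Fin.ext ((hq _ hlt).trans hpi)⟩
    · rintro ⟨j, hj, rfl⟩
      obtain ⟨hjn, hb⟩ := Finset.mem_filter.1 (Finset.mem_coe.1 hj)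
      exact (key j (Finset.mem_range.1 hjn)).2 hb
  rw [himg, Set.ncard_image_of_injOn hinj, Set.ncard_coe_finset]

end PartCert

end CfsgLib.SuzRankThree5
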