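import Cfsg.Agent.SuzRankThree5.Model

/-!
A transitive group on 1782 points with a rank 3 stabiliser: its orbital graph and the orbits
of a point stabiliser.
-/

set_option autoImplicit false

namespace CfsgLib.SuzRankThree5

open CfsgLib.CosetEnum CfsgLib.CosetEnum.Suz

/-- the data of a rank 3 group in which the stabiliser is identified with that of the model -/
structure Setting (Ω : Type*) [Fintype Ω] [DecidableEq Ω] where
  G : Subgroup (Equiv.Perm Ω)
  trans : ∀ x y : Ω, ∃ g ∈ G, g x = y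
  card_univ : Fintype.card Ω = 1782
  a : Ω
  th : ↥(pointStab G [a]) →* P
  th_inj : Function.Injective th
  th_range : th.range = MM
  b : Ω
  c : Ω
  hb : (MulAction.orbit (pointStab G [a]) b).ncard = 416
  hc : (MulAction.orbit (pointStab G [a]) c).ncard = 1365

namespace Setting

variable {Ω : Type*} [Fintype Ω] [DecidableEq Ω] (S : Setting Ω)

/-- the stabiliser of the first point -/
abbrev Ga : Subgroup (Equiv.Perm Ω) := pointStab S.G [S.a]

theorem mem_Ga {g : Equiv.Perm Ω} : g ∈ S.Ga ↔ g ∈ S.G ∧ g S.a = S.a := by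
  simp [mem_pointStab]

theorem th_mem (g : ↥S.Ga) : S.th g ∈ MM := S.th_range ▸ ⟨g, rfl⟩

theorem card_Ga : Nat.card S.Ga = 251596800 := by
  rw [Nat.card_congr (MonoidHom.ofInjective S.th_inj).toEquiv, S.th_range, card_MM]

theorem cj_pointStab {g : Equiv.Perm Ω} (hg : g ∈ S.G) (pts : List Ω) :
    pointStab S.G (pts.map g) = cj g (pointStab S.G pts) := by
  ext h
  simp only [mem_cj, mem_pointStab, List.mem_map, forall_exists_index, and_imp,
    forall_apply_eq_imp_iff₂, Equiv.Perm.mul_apply]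
  have : h ∈ S.G ↔ g⁻¹ * h * g ∈ S.G :=
    ⟨fun hh => mul_mem (mul_mem (inv_mem hg) hh) hg,
      fun hh => by simpa [mul_assoc] using mul_mem (mul_mem hg hh) (inv_mem hg)⟩
  rw [this]
  exact and_congr_right fun _ => forall_congr' fun p => forall_congr' fun _ =>
    Equiv.Perm.inv_eq_iff_eq.symm

theorem card_stab (x : Ω) : Nat.card (pointStab S.G [x]) = 251596800 := by
  obtain ⟨g, hg, rfl⟩ := S.trans S.a x
  rw [show [g S.a] = [S.a].map g from rfl, S.cj_pointStab hg, card_cj, S.card_Ga]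

theorem card_G : Nat.card S.G = 448345497600 := by
  have h := card_pointStab_eq S.G [] S.a
  have : MulAction.orbit (pointStab S.G ([] : List Ω)) S.a = Set.univ :=
    Set.eq_univ_of_forall fun y => by
      obtain ⟨g, hg, hgy⟩ := S.trans S.a y
      exact ⟨⟨g, hg⟩, hgy⟩
  rw [this, Set.ncard_univ, Nat.card_eq_fintype_card, S.card_univ, S.card_Ga] at h
  have h' : 1782 * 251596800 = Nat.card S.G := h
  omega

/-- adjacency -/
def R (u v : Ω) : Prop := Nat.card (pointStab S.G [u, v]) = 604800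

theorem R_symm {u v : Ω} : S.R u v ↔ S.R v u := by
  have : pointStab S.G [u, v] = pointStab S.G [v, u] := by
    ext g
    simp only [mem_pointStab, List.mem_cons, List.not_mem_nil, or_false, forall_eq_or_imp,
      forall_eq]
    tauto
  rw [R, R, this]

theorem R_map {g : Equiv.Perm Ω} (hg : g ∈ S.G) (u v : Ω) : S.R (g u) (g v) ↔ S.R u v := by
  rw [R, R, show [g u, g v] = [u, v].map g from rfl, S.cj_pointStab hg, card_cj]

theorem R_irrefl (u : Ω) : ¬ S.R u u := by
  intro h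
  have : pointStab S.G [u, u] = pointStab S.G [u] := by
    ext g
    simp [mem_pointStab]
  rw [R, this, S.card_stab] at h
  omega

/-- the orbit of `x` under the stabiliser -/
def orb (x : Ω) : Set Ω := MulAction.orbit S.Ga x

theorem orb_mul (x : Ω) :
    (S.orb x).ncard * Nat.card (pointStab S.G [x, S.a]) = 251596800 := by
  rw [← S.card_Ga]
  exact card_pointStab_eq S.G [S.a] x

theorem card_stab_b : Nat.card (pointStab S.G [S.b, S.a]) = 604800 := by
  have h := S.orb_mul S.b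
  rw [orb, S.hb] at h
  omega

theorem card_stab_c : Nat.card (pointStab S.G [S.c, S.a]) = 184320 := by
  have h := S.orb_mul S.c
  rw [orb, S.hc] at h
  omega

theorem trichotomy (x : Ω) : x = S.a ∨ x ∈ S.orb S.b ∨ x ∈ S.orb S.c := by
  classical
  have ha : ∀ y, S.a ∈ S.orb y → y = S.a := fun y hy => by
    obtain ⟨g, hg⟩ := hy
    have hga : (g : Equiv.Perm Ω) S.a = S.a := (S.mem_Ga.1 g.2).2
    exact (g : Equiv.Perm Ω).injective (hg.trans hga.symm)
  have horba : (S.orb S.a).ncard = 1 := by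
    rw [show S.orb S.a = {S.a} from Set.eq_singleton_iff_unique_mem.2
      ⟨MulAction.mem_orbit_self _, fun y ⟨g, hg⟩ => hg ▸ (S.mem_Ga.1 g.2).2⟩, Set.ncard_singleton]
  have hab : S.a ∉ S.orb S.b := fun h => by
    have := S.hb
    rw [← orb, ha _ h, horba] at this
    omega
  have hac : S.a ∉ S.orb S.c := fun h => by
    have := S.hc
    rw [← orb, ha _ h, horba] at this
    omega
  have hd : Disjoint (S.orb S.b) (S.orb S.c) := by
    rw [Set.disjoint_left]
    intro y h1 h2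
    have e : (S.orb S.b).ncard = (S.orb S.c).ncard := by
      rw [orb, orb, ← MulAction.orbit_eq_iff.2 h1, ← MulAction.orbit_eq_iff.2 h2]
    rw [orb, orb, S.hb, S.hc] at e
    omega
  have hfull : insert S.a (S.orb S.b ∪ S.orb S.c) = Set.univ := by
    refine Set.eq_of_subset_of_ncard_le (Set.subset_univ _) ?_
    rw [Set.ncard_insert_of_notMem (fun h => h.elim hab hac), Set.ncard_union_eq hd,
      Set.ncard_univ, Nat.card_eq_fintype_card, S.card_univ, orb, orb, S.hb, S.hc]
  have := Set.mem_univ x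
  rw [← hfull] at this
  exact this

theorem R_base (x : Ω) : S.R S.a x ↔ x ∈ S.orb S.b := by
  rw [R_symm, R]
  constructor
  · intro h
    rcases S.trichotomy x with rfl | hx | hx
    · exact absurd (S.R_symm.1 h) (S.R_irrefl _)
    · exact hx
    · have e := S.orb_mul x
      rw [orb, MulAction.orbit_eq_iff.2 hx, S.hc, h] at e
      omega
  · intro hx
    have e := S.orb_mul x
    rw [orb, MulAction.orbit_eq_iff.2 hx, S.hb] at e
    omega

theorem ncard_nbrs (u : Ω) : {v | S.R u v}.ncard = 416 := by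
  obtain ⟨g, hg, rfl⟩ := S.trans S.a u
  have : {v | S.R (g S.a) v} = g '' S.orb S.b := by
    ext v
    rw [Set.mem_image]
    constructor
    · intro h
      refine ⟨g⁻¹ v, (S.R_base _).1 ((S.R_map hg _ _).1 ?_), by simp⟩
      simpa using h
    · rintro ⟨w, hw, rfl⟩
      exact (S.R_map hg _ _).2 ((S.R_base _).2 hw)
  rw [this, Set.ncard_image_of_injective _ g.injective, orb, S.hb]

theorem R_Ga (g : ↥S.Ga) (u v : Ω) :
    S.R ((g : Equiv.Perm Ω) u) ((g : Equiv.Perm Ω) v) ↔ S.R u v :=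
  S.R_map (S.mem_Ga.1 g.2).1 u v

/-- the image of a two-point stabiliser -/
noncomputable def img (x : Ω) : Subgroup P :=
  ((pointStab S.G [x, S.a]).subgroupOf S.Ga).map S.th

theorem mem_img {x : Ω} {p : P} :
    p ∈ S.img x ↔ ∃ g : ↥S.Ga, (g : Equiv.Perm Ω) x = x ∧ S.th g = p := by
  simp only [img, Subgroup.mem_map, Subgroup.mem_subgroupOf]
  constructor
  · rintro ⟨g, hg, rfl⟩
    exact ⟨g, (mem_pointStab.1 hg).2 x List.mem_cons_self, rfl⟩
  · rintro ⟨g, hg, rfl⟩
    refine ⟨g, mem_pointStab.2 ⟨(S.mem_Ga.1 g.2).1, ?_⟩, rfl⟩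
    simp only [List.mem_cons, List.not_mem_nil, or_false, forall_eq_or_imp, forall_eq]
    exact ⟨hg, (S.mem_Ga.1 g.2).2⟩

theorem img_le (x : Ω) : S.img x ≤ MM := S.th_range ▸ Subgroup.map_le_range _ _

theorem card_img (x : Ω) : Nat.card (S.img x) = Nat.card (pointStab S.G [x, S.a]) := by
  rw [img, ← Nat.card_congr (Subgroup.equivMapOfInjective _ _ S.th_inj).toEquiv]
  exact Nat.card_congr (Subgroup.subgroupOfEquivOfLe (fun g hg => S.mem_Ga.2
    ⟨(mem_pointStab.1 hg).1, (mem_pointStab.1 hg).2 _ (by simp)⟩)).toEquiv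

theorem th_eq_iff {x : Ω} {q : Pt} (hq : ∀ g : ↥S.Ga, S.th g q = q ↔ (g : Equiv.Perm Ω) x = x)
    (g h : ↥S.Ga) : S.th g q = S.th h q ↔ (g : Equiv.Perm Ω) x = (h : Equiv.Perm Ω) x := by
  have := hq (h⁻¹ * g)
  rw [map_mul, map_inv, Equiv.Perm.mul_apply, Equiv.Perm.inv_eq_iff_eq, Subgroup.coe_mul,
    Subgroup.coe_inv, Equiv.Perm.mul_apply, Equiv.Perm.inv_eq_iff_eq] at this
  exact this

/-- an equivariant map on an orbit -/
theorem exists_map {x : Ω} {q : Pt} (hq : ∀ g : ↥S.Ga, S.th g q = q ↔ (g : Equiv.Perm Ω) x = x) :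
    ∃ f : Ω → Pt, ∀ g : ↥S.Ga, f ((g : Equiv.Perm Ω) x) = S.th g q := by
  classical
  refine ⟨fun y => if h : ∃ g : ↥S.Ga, (g : Equiv.Perm Ω) x = y then S.th h.choose q else q,
    fun g => ?_⟩
  have h : ∃ g' : ↥S.Ga, (g' : Equiv.Perm Ω) x = (g : Equiv.Perm Ω) x := ⟨g, rfl⟩
  show dite _ _ _ = _
  rw [dif_pos h, S.th_eq_iff hq]
  exact h.choose_spec

theorem mem_orb {x y : Ω} : y ∈ S.orb x ↔ ∃ g : ↥S.Ga, (g : Equiv.Perm Ω) x = y := Iff.rfl

/-- the stabiliser of a point after conjugating the identification -/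
theorem fix_iff_of_img {x : Ω} {m : P} {K : Subgroup P} {q : Pt} (hm : m ∈ MM)
    (he : S.img x = cj m K) (hK : ∀ k, k ∈ K ↔ k ∈ MM ∧ k q = q) (g : ↥S.Ga) :
    S.th g (m q) = m q ↔ (g : Equiv.Perm Ω) x = x := by
  have h1 : S.th g ∈ S.img x ↔ (g : Equiv.Perm Ω) x = x := by
    rw [mem_img]
    exact ⟨fun ⟨h, hh, e⟩ => S.th_inj e ▸ hh, fun h => ⟨g, h, rfl⟩⟩
  rw [← h1, he, mem_cj, hK]
  simp only [Equiv.Perm.mul_apply, Equiv.Perm.inv_eq_iff_eq]
  exact ⟨fun h => ⟨mul_mem (mul_mem (inv_mem hm) (S.th_mem g)) hm, h⟩, fun h => h.2⟩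

end Setting

end CfsgLib.SuzRankThree5
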