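import Cfsg.Agent.SuzRankThree5.ChecksTwo
import Cfsg.Agent.SuzRankThree5.ClassOne

/-! The parabolic subgroup fixing a point, its Sylow 2-subgroup and the cosets. -/

set_option autoImplicit false
set_option maxRecDepth 100000

namespace CfsgLib.SuzRankThree5

open CfsgLib.CosetEnum CfsgLib.CosetEnum.Suz

/-- the point in the suborbit of 1365 points -/
def Y0 : Pt := ptM 1

theorem Y0_val : ((Y0 : Pt) : ℕ) = 1 := ptM_val (by omega)

theorem lab_Y0 : Suz.Tab.labSix (Y0 : Pt) = 2 := by rw [Y0_val]; decide +kernel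

/-- the parabolic subgroup -/
noncomputable def PY : Subgroup P := MM ⊓ MulAction.stabilizer P Y0

theorem mem_PY {g : P} : g ∈ PY ↔ g ∈ MM ∧ g Y0 = Y0 := Iff.rfl

theorem ok_two : (∀ v ∈ wordsU, okW 6 v = true) ∧ (∀ v ∈ cosetU, okW 6 v = true) ∧
    (∀ v ∈ moveU, okW 6 v = true) ∧ (∀ v ∈ wordsExtra, okW 6 v = true) := by
  have h := words_two_ok
  simp only [Bool.and_eq_true, Model.allK_iff] at h
  obtain ⟨⟨⟨h1, h2⟩, h3⟩, h4⟩ := h
  exact ⟨h1, h2, h3, h4⟩

theorem memK_iff {a : ℕ} {l : List ℕ} : memK a l = true ↔ a ∈ l := by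
  induction l with
  | nil => simp [memK]
  | cons b l ih =>
    change (Bool.rec (memK a l) true (Nat.beq a b)) = true ↔ _
    cases hb : Nat.beq a b
    · simp only [ih, List.mem_cons]
      exact ⟨Or.inr, fun h => h.resolve_left fun e => by simp [e] at hb⟩
    · simp only [List.mem_cons, true_iff]
      exact Or.inl (Nat.eq_of_beq_eq_true hb)

theorem inv_ptM {w : List ℕ} (hw : okW 7 w = true) {x : ℕ} (hx : x < 1782) :
    (el w)⁻¹ (ptM x) = ptM (runN w x) :=
  Fin.ext (by rw [el_inv_val hw, ptM_val hx, ptM_val (runN_lt hw hx)])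

theorem el_mem_PY {w : List ℕ} (hw : w ∈ wordsU ++ cosetU ++ wordsExtra) :
    el w ∈ PY ∧ okW 6 w = true := by
  obtain ⟨h1, h2, -, h4⟩ := ok_two
  have hok : okW 6 w = true := by
    rcases List.mem_append.1 hw with h | h
    · rcases List.mem_append.1 h with h | h
      exacts [h1 w h, h2 w h]
    · exact h4 w h
  have h := fix_two
  rw [Model.allK_iff] at h
  refine ⟨mem_PY.2 ⟨el_mem_MM hok, fix_of_runN (okW_mono hok (by omega)) Y0 ?_⟩, hok⟩
  rw [Y0_val]
  exact beq_iff_eq.1 (h w hw)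

theorem orbit_Y0 : (MulAction.orbit MM Y0).ncard = 1365 := ncard_orbit_six lab_Y0 count_six2

theorem card_PY : Nat.card PY = 184320 := by
  have h := card_pointStab_eq pi.range [P0] Y0
  have hM : pointStab pi.range [P0] = MM := stab_zero
  rw [hM, orbit_Y0, card_MM,
    show pointStab pi.range (Y0 :: [P0]) = PY by rw [pointStab, hM]; rfl] at h
  have h' : 1365 * Nat.card PY = 251596800 := h
  omega

/-- the 2-subgroup on the first generators -/
noncomputable def UT (i : ℕ) : Subgroup P :=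
  Subgroup.closure {g | ∃ w ∈ wordsU.take i, el w = g}

/-- the Sylow 2-subgroup -/
noncomputable def UU : Subgroup P := UT 12

theorem UU_eq : UU = Subgroup.closure {g | ∃ w ∈ wordsU, el w = g} := by
  rw [UU, UT, List.take_of_length_le lengths_two.1.le]

theorem el_mem_UT {i : ℕ} {w : List ℕ} (hw : w ∈ wordsU.take i) : el w ∈ UT i :=
  Subgroup.subset_closure ⟨w, hw, rfl⟩

theorem el_mem_UU {w : List ℕ} (hw : w ∈ wordsU) : el w ∈ UU := by
  rw [UU_eq]; exact Subgroup.subset_closure ⟨w, hw, rfl⟩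

theorem UT_mono {i j : ℕ} (h : i ≤ j) : UT i ≤ UT j :=
  Subgroup.closure_mono fun _ ⟨w, hw, e⟩ => ⟨w, (List.take_sublist_take_left h).subset hw, e⟩

/-- a finite set mapped into itself by some words is invariant under their span -/
theorem invariant_of_words {γ : Type} [DecidableEq γ] (act : P → γ → γ) (h1 : ∀ z, act 1 z = z)
    (hm : ∀ g h z, act (g * h) z = act g (act h z)) (S : List (List ℕ)) (O : List γ)
    (h : ∀ w ∈ S, ∀ z ∈ O, act (el w)⁻¹ z ∈ O) :
    ∀ g ∈ Subgroup.closure {g | ∃ w ∈ S, el w = g}, ∀ z, act g z ∈ O ↔ z ∈ O := by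
  let St : Subgroup P :=
    { carrier := {g | ∀ z, act g z ∈ O ↔ z ∈ O}
      one_mem' := fun z => by rw [h1]
      mul_mem' := fun {a b} ha hb z => by rw [hm]; exact (ha _).trans (hb z)
      inv_mem' := fun {a} ha z => by
        have := ha (act a⁻¹ z)
        rw [← hm, mul_inv_cancel, h1] at this
        exact this.symm }
  suffices hle : Subgroup.closure {g | ∃ w ∈ S, el w = g} ≤ St from fun g hg => hle hg
  rw [Subgroup.closure_le]
  rintro _ ⟨w, hw, rfl⟩
  have hinv : (el w)⁻¹ ∈ St := by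
    intro z
    refine ⟨fun hz => ?_, h w hw z⟩
    let e : γ → γ := act (el w)⁻¹
    have hinj : Function.Injective e := fun a b hab => by
      have := congrArg (act (el w)) hab
      simpa [e, ← hm, h1] using this
    have himg : O.toFinset.image e = O.toFinset := by
      refine Finset.eq_of_subset_of_card_le ?_ (Finset.card_image_of_injective _ hinj).ge
      intro x hx
      obtain ⟨a, ha, rfl⟩ := Finset.mem_image.1 hx
      exact List.mem_toFinset.2 (h w hw a (List.mem_toFinset.1 ha))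
    have : e z ∈ O.toFinset.image e := by rw [himg]; exact List.mem_toFinset.2 hz
    obtain ⟨a, ha, hae⟩ := Finset.mem_image.1 this
    rw [← hinj hae]
    exact List.mem_toFinset.1 ha
  have := St.inv_mem hinv
  rwa [inv_inv] at this

theorem pc_data {i : ℕ} (hi : i < 12) :
    wordsU.getD i [] ∈ wordsU ∧ wordsU.take (i + 1) = wordsU.take i ++ [wordsU.getD i []] := by
  have hl : i < wordsU.length := lengths_two.1.symm ▸ hi
  rw [List.getD_eq_getElem _ _ hl]
  exact ⟨List.getElem_mem hl, List.take_succ_eq_append_getElem hl⟩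

theorem pc_step {i : ℕ} (hi : i < 12) :
    el (wordsU.getD i []) * el (wordsU.getD i []) = 1 ∧
      cj (el (wordsU.getD i [])) (UT i) = UT i ∧ el (wordsU.getD i []) ∉ UT i := by
  obtain ⟨hu, -⟩ := pc_data hi
  have hU := ok_two.1
  have h := (Model.allBelow_iff _ _).1 pc_ok i hi
  simp only [pcOK, Bool.and_eq_true, Model.allBelow_iff, Model.allK_iff, Bool.not_eq_true',
    beq_iff_eq, Nat.blt, Nat.ble_eq] at h
  obtain ⟨⟨⟨⟨⟨⟨hsq, -⟩, hconj⟩, hcl⟩, hlt⟩, hmem⟩, hout⟩ := h
  set u := wordsU.getD i []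
  have hu7 : okW 7 u = true := okW_mono (hU u hu) (by omega)
  have he : ∀ v ∈ wordsU.take i, okW 7 v = true := fun v hv =>
    okW_mono (hU v (List.mem_of_mem_take hv)) (by omega)
  refine ⟨?_, cj_closure_eq ?_, ?_⟩
  · have := el_eq_six (okW_append.2 ⟨hu7, hu7⟩) (okW_iff.2 (by simp)) hsq
    rwa [el_append, el_nil] at this
  · rintro _ ⟨v, hv, rfl⟩
    obtain ⟨j, hj, rfl⟩ := List.mem_iff_getElem.1 hv
    rw [List.length_take, lengths_two.1] at hj
    have hji : j < i := lt_of_lt_of_le hj (min_le_left _ _)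
    have e := hconj j hji
    rw [List.getD_eq_getElem _ _ (by rw [lengths_two.1]; omega)] at e
    rw [List.getElem_take, ← el_reverse hu7, ← el_append, ← el_append, el_eq_six
      (okW_append.2 ⟨okW_append.2 ⟨hu7, okW_mono (hU _ (List.getElem_mem _)) (by omega)⟩,
        okW_reverse.2 hu7⟩) (ok_flat he _) e]
    exact el_flat_mem (fun w hw => el_mem_UT hw) _
  · intro hin
    set O := (witU.getD i (0, [])).2
    set p := (witU.getD i (0, [])).1
    have hp : p < 1782 := hlt p (memK_iff.1 hmem)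
    have hinv := invariant_of_words (fun g (z : Pt) => g z) (fun z => rfl) (fun g h z => rfl)
      (wordsU.take i) (O.map ptM) (fun w hw z hz => by
        obtain ⟨x, hx, rfl⟩ := List.mem_map.1 hz
        exact List.mem_map.2 ⟨runN w x, memK_iff.1 (hcl w hw x hx), (inv_ptM (he w hw) (hlt x hx)).symm⟩)
      (el u)⁻¹ (inv_mem hin) (ptM p)
    obtain ⟨x, hx, hxe⟩ := List.mem_map.1 (hinv.2 (List.mem_map.2 ⟨p, memK_iff.1 hmem, rfl⟩))
    rw [inv_ptM hu7 hp] at hxe
    have hx' : x = runN u p := by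
      rw [← ptM_val (hlt x hx), hxe, ptM_val (runN_lt hu7 hp)]
    rw [← hx', memK_iff.2 hx] at hout
    exact Bool.noConfusion hout

theorem UT_succ {i : ℕ} (hi : i < 12) :
    UT (i + 1) = UT i ⊔ Subgroup.zpowers (el (wordsU.getD i [])) := by
  rw [UT, UT, (pc_data hi).2, Subgroup.zpowers_eq_closure, ← Subgroup.closure_union]
  refine congrArg Subgroup.closure (Set.ext fun g => ?_)
  simp only [List.mem_append, List.mem_singleton, Set.mem_ofPred_eq, Set.mem_union,
    Set.mem_singleton_iff]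
  constructor
  · rintro ⟨w, hw | rfl, rfl⟩
    exacts [Or.inl ⟨w, hw, rfl⟩, Or.inr rfl]
  · rintro (⟨w, hw, rfl⟩ | rfl)
    exacts [⟨w, Or.inl hw, rfl⟩, ⟨_, Or.inr rfl, rfl⟩]

theorem UT_isPGroup {i : ℕ} (hi : i ≤ 12) : IsPGroup 2 (UT i) := by
  induction i with
  | zero =>
    refine isPGroup_of_exp fun x hx => ?_
    simp [UT] at hx
    simp [hx]
  | succ i ih =>
    rw [UT_succ (by omega)]
    obtain ⟨hsq, hn, -⟩ := pc_step (i := i) (by omega)
    have hz : IsPGroup 2 (Subgroup.zpowers (el (wordsU.getD i []))) :=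
      isPGroup_of_exp fun x hx => by
        obtain ⟨k, rfl⟩ := Subgroup.mem_zpowers_iff.1 hx
        rw [← zpow_natCast, ← zpow_mul, mul_comm, zpow_mul, zpow_natCast, pow_two, hsq, one_zpow]
    refine (ih (by omega)).to_sup_of_normal_left' hz ?_
    rw [Subgroup.zpowers_le]
    refine Subgroup.mem_normalizer_iff.2 fun x => ?_
    have key : ∀ y, y ∈ UT i →
        el (wordsU.getD i []) * y * (el (wordsU.getD i []))⁻¹ ∈ UT i := fun y hy => by
      have := conj_mem_cj (g := el (wordsU.getD i [])) hy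
      rwa [hn] at this
    refine ⟨key x, fun h => ?_⟩
    rw [← hn] at h
    simpa [mem_cj, mul_assoc] using h

theorem card_UT_ge {i : ℕ} (hi : i ≤ 12) : 2 ^ i ≤ Nat.card (UT i) := by
  induction i with
  | zero => exact Nat.card_pos
  | succ i ih =>
    obtain ⟨-, -, hout⟩ := pc_step (i := i) (by omega)
    have hle : UT i ≤ UT (i + 1) := UT_mono (by omega)
    obtain ⟨d, hd⟩ := Subgroup.card_dvd_of_le hle
    have hd1 : d ≠ 1 := fun h => hout (by
      have : UT i = UT (i + 1) := Subgroup.eq_of_le_of_card_ge hle (by rw [hd, h, mul_one])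
      rw [this]
      exact el_mem_UT (by rw [(pc_data (by omega : i < 12)).2]; simp))
    have hd0 : d ≠ 0 := fun h => by
      rw [h, mul_zero] at hd
      exact absurd hd Nat.card_pos.ne'
    calc 2 ^ (i + 1) = 2 ^ i * 2 := pow_succ 2 i
      _ ≤ Nat.card (UT i) * d := Nat.mul_le_mul (ih (by omega)) (by omega)
      _ = _ := hd.symm

theorem UU_le_PY : UU ≤ PY := by
  rw [UU_eq, Subgroup.closure_le]
  rintro _ ⟨w, hw, rfl⟩
  exact (el_mem_PY (List.mem_append_left _ (List.mem_append_left _ hw))).1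

theorem card_UU : Nat.card UU = 4096 := by
  refine le_antisymm ?_ (card_UT_ge le_rfl)
  obtain ⟨k, hk⟩ := IsPGroup.iff_card.1 (UT_isPGroup (i := 12) le_rfl)
  change Nat.card UU = _ at hk
  have hd := Subgroup.card_dvd_of_le UU_le_PY
  rw [card_PY, hk, show (184320 : ℕ) = 2 ^ 12 * 45 by norm_num] at hd
  have : 2 ^ k ∣ 2 ^ 12 := (Nat.Coprime.pow_left k (by norm_num)).dvd_of_dvd_mul_right hd
  rw [hk]
  exact Nat.le_of_dvd (by norm_num) this

theorem UU_isPGroup : IsPGroup 2 UU := UT_isPGroup le_rfl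

theorem PY_eq_cosets {g : P} (hg : g ∈ PY) :
    ∃ k < 45, ∃ u ∈ UU, g = el (cosetU.getD k []) * u := by
  classical
  let c : ℕ → P := fun k => el (cosetU.getD k [])
  have hc : ∀ k < 45, c k ∈ PY ∧ okW 7 (cosetU.getD k []) = true := fun k hk => by
    have hm : cosetU.getD k [] ∈ cosetU := by
      rw [List.getD_eq_getElem _ _ (by rw [lengths_two.2.1]; exact hk)]; exact List.getElem_mem _
    have := el_mem_PY (List.mem_append_left _ (List.mem_append_right _ hm))
    exact ⟨this.1, okW_mono this.2 (by omega)⟩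
  let f : Fin 45 × UU → PY := fun x =>
    ⟨c x.1 * x.2, mul_mem (hc x.1 x.1.2).1 (UU_le_PY x.2.2)⟩
  have hsep : ∀ a b : ℕ, b < a → a < 45 → (c b)⁻¹ * c a ∉ UU := by
    intro a b hba ha hin
    have h := (Model.allBelow_iff _ _).1 ((Model.allBelow_iff _ _).1 sep_ok a ha) b hba
    obtain ⟨o, ho, h⟩ := List.any_eq_true.1 h
    simp only [Bool.and_eq_true, Bool.not_eq_true'] at h
    obtain ⟨hout, hmem⟩ := h
    set w := (cosetU.getD b []).reverse ++ cosetU.getD a []
    have hw : okW 7 w = true := okW_append.2 ⟨okW_reverse.2 (hc b (by omega)).2, (hc a ha).2⟩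
    have hO := orb_ok
    rw [Model.allK_iff] at hO
    have hO' := hO o ho
    simp only [orbOK, Bool.and_eq_true, Model.allK_iff, Nat.blt, Nat.ble_eq] at hO'
    obtain ⟨hcl, hlt⟩ := hO'
    set x := o.getD 0 0
    let q : ℕ → Pt × Pt := fun x => (ptM (x / 2048), ptM (x % 2048))
    have hu7 : ∀ g ∈ wordsU, okW 7 g = true := fun g hg => okW_mono (ok_two.1 g hg) (by omega)
    have hrun : ∀ g, okW 7 g = true → ∀ z ∈ o,
        q (2048 * runN g (z / 2048) + runN g (z % 2048)) =
          ((el g)⁻¹ (q z).1, (el g)⁻¹ (q z).2) := by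
      intro g hg z hz
      have h1 := runN_lt hg (hlt z hz).1
      have h2 := runN_lt hg (hlt z hz).2
      simp only [q, inv_ptM hg (hlt z hz).1, inv_ptM hg (hlt z hz).2]
      rw [show (2048 * runN g (z / 2048) + runN g (z % 2048)) / 2048 = runN g (z / 2048) by omega,
        show (2048 * runN g (z / 2048) + runN g (z % 2048)) % 2048 = runN g (z % 2048) by omega]
    have hin' : el w ∈ UU := by rw [el_append, el_reverse (hc b (by omega)).2]; exact hin
    rw [UU_eq] at hin'
    have hinv := invariant_of_words (fun g (z : Pt × Pt) => (g z.1, g z.2)) (fun z => rfl)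
      (fun g h z => rfl) wordsU (o.map q) (fun g hg z hz => by
        obtain ⟨z', hz', rfl⟩ := List.mem_map.1 hz
        exact List.mem_map.2 ⟨_, memK_iff.1 (hcl g hg z' hz'), hrun g (hu7 g hg) z' hz'⟩)
      (el w)⁻¹ (inv_mem hin') (q x)
    have hxm : x ∈ o := memK_iff.1 hmem
    obtain ⟨z, hz, hze⟩ := List.mem_map.1 (hinv.2 (List.mem_map.2 ⟨x, hxm, rfl⟩))
    rw [← hrun w hw x hxm] at hze
    have hzlt := hlt z hz
    have h1 := runN_lt hw (hlt x hxm).1
    have h2 := runN_lt hw (hlt x hxm).2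
    simp only [q, Prod.mk.injEq, Fin.ext_iff] at hze
    rw [ptM_val hzlt.1, ptM_val hzlt.2, ptM_val (by omega), ptM_val (by omega)] at hze
    rw [show 2048 * runN w (x / 2048) + runN w (x % 2048) = z by omega, memK_iff.2 hz] at hout
    exact Bool.noConfusion hout
  have hinj : Function.Injective f := by
    rintro ⟨a, u⟩ ⟨b, v⟩ hab
    have e : c a * (u : P) = c b * (v : P) := congrArg Subtype.val hab
    have e' : (c b)⁻¹ * c a = (v : P) * (u : P)⁻¹ := by
      rw [eq_mul_inv_iff_mul_eq, mul_assoc, e, inv_mul_cancel_left]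
    have hab' : (a : ℕ) = (b : ℕ) := by
      rcases lt_trichotomy (a : ℕ) (b : ℕ) with h | h | h
      · refine absurd ?_ (hsep b a h b.2)
        rw [show (c a)⁻¹ * c b = ((c b)⁻¹ * c a)⁻¹ by group, e']
        exact inv_mem (mul_mem v.2 (inv_mem u.2))
      · exact h
      · exact absurd (e' ▸ mul_mem v.2 (inv_mem u.2)) (hsep a b h a.2)
    obtain rfl := Fin.ext hab'
    exact Prod.ext rfl (Subtype.ext (mul_left_cancel e))
  have hbij : Function.Bijective f := (Nat.bijective_iff_injective_and_card f).2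
    ⟨hinj, by rw [Nat.card_prod, Nat.card_fin, card_UU, card_PY]⟩
  obtain ⟨⟨k, u⟩, hku⟩ := hbij.2 ⟨g, hg⟩
  exact ⟨k, k.2, u, u.2, (congrArg Subtype.val hku).symm⟩

end CfsgLib.SuzRankThree5
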