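import Cfsg.Agent.SuzRankThree5.Fast

/-! Words as elements of the permutation group, and equality of words from the base points. -/

set_option autoImplicit false

namespace CfsgLib.SuzRankThree5

open CfsgLib.CosetEnum CfsgLib.CosetEnum.Suz

/-- the points -/
abbrev Pt := Fin Tab.perm.n

/-- the permutations of the points -/
abbrev P := Equiv.Perm Pt

/-- a point by its number -/
def ptM (i : ℕ) : Pt := ⟨i % 1782, Nat.mod_lt _ (by omega : 0 < 1782)⟩

theorem ptM_val {i : ℕ} (hi : i < 1782) : ((ptM i : Pt) : ℕ) = i := Nat.mod_eq_of_lt hi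

/-- the element of a word -/
noncomputable def el (w : List ℕ) : P := gword perm_ok.sigma w

/-- all letters are below `m` -/
noncomputable def okW (m : ℕ) (w : List ℕ) : Bool := allK (fun x => Nat.blt x m) w

theorem okW_iff {m : ℕ} {w : List ℕ} : okW m w = true ↔ ∀ x ∈ w, x < m := by
  simp [okW, Model.allK_iff, Nat.blt, Nat.ble_eq]

theorem okW_mono {m m' : ℕ} {w : List ℕ} (h : okW m w = true) (hm : m ≤ m') : okW m' w = true :=
  okW_iff.2 fun x hx => lt_of_lt_of_le (okW_iff.1 h x hx) hm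

theorem okW_append {m : ℕ} {u v : List ℕ} :
    okW m (u ++ v) = true ↔ okW m u = true ∧ okW m v = true := by
  simp [okW_iff, or_imp, forall_and]

theorem okW_reverse {m : ℕ} {u : List ℕ} : okW m u.reverse = true ↔ okW m u = true := by
  simp [okW_iff]

theorem el_nil : el [] = 1 := rfl

theorem el_cons (x : ℕ) (w : List ℕ) : el (x :: w) = perm_ok.sigma x * el w := gword_cons _ _ _

theorem el_append (u v : List ℕ) : el (u ++ v) = el u * el v := by
  simp [el, gword, List.map_append, List.prod_append]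

theorem el_mem_range {w : List ℕ} (hw : okW 7 w = true) : el w ∈ pi.range :=
  ⟨gword gen w, by rw [gword_map]; exact gword_congr _ _ fun x hx => pi_gen (okW_iff.1 hw x hx)⟩

theorem el_inv_val {w : List ℕ} (hw : okW 7 w = true) (i : Pt) :
    (((el w)⁻¹ i : Pt) : ℕ) = runN w i := by
  induction w generalizing i with
  | nil => simp [el_nil, runN_nil]
  | cons x w ih =>
    have hx : x < 7 := okW_iff.1 hw x List.mem_cons_self
    have hw' : okW 7 w = true :=
      okW_iff.2 fun y hy => okW_iff.1 hw y (List.mem_cons_of_mem _ hy)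
    rw [el_cons, mul_inv_rev, Equiv.Perm.mul_apply, runN_cons, ih hw' ((perm_ok.sigma x)⁻¹ i),
      perm_ok.sigma_inv_apply (show x < Tab.perm.L from hx), step_eq hx i.2]
    rfl

theorem runN_lt {w : List ℕ} (hw : okW 7 w = true) {i : ℕ} (hi : i < 1782) : runN w i < 1782 := by
  have := el_inv_val hw ⟨i, hi⟩
  rw [← this]
  exact ((el w)⁻¹ ⟨i, hi⟩ : Pt).2

theorem el_apply_eq_iff {w : List ℕ} (hw : okW 7 w = true) (i j : Pt) :
    el w i = j ↔ runN w j = i := by
  rw [← el_inv_val hw, ← Fin.ext_iff]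
  exact ⟨fun h => by simp [← h], fun h => by simp [← h]⟩

theorem sigma_inv_eq {x : ℕ} (hx : x < 7) : (perm_ok.sigma x)⁻¹ = perm_ok.sigma x := by
  rw [← pi_gen hx, ← map_inv, gen_inv]

theorem el_reverse {w : List ℕ} (hw : okW 7 w = true) : el w.reverse = (el w)⁻¹ := by
  induction w with
  | nil => simp [el_nil]
  | cons x w ih =>
    have hx : x < 7 := okW_iff.1 hw x List.mem_cons_self
    have hw' : okW 7 w = true :=
      okW_iff.2 fun y hy => okW_iff.1 hw y (List.mem_cons_of_mem _ hy)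
    rw [List.reverse_cons, el_append, el_cons, el_cons, el_nil, mul_one, mul_inv_rev, ih hw',
      sigma_inv_eq hx]

theorem el_apply_val {w : List ℕ} (hw : okW 7 w = true) (i : Pt) :
    ((el w i : Pt) : ℕ) = runN w.reverse i := by
  rw [← el_inv_val (okW_reverse.2 hw), el_reverse hw, inv_inv]

/-- the stabiliser of the first point -/
noncomputable abbrev MM : Subgroup P := cl Tab.wordsSix

/-- the stabiliser of the first two base points -/
noncomputable abbrev JJ : Subgroup P := cl Tab.wordsFive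

theorem el_mem_cl {m : ℕ} {w : List ℕ} (hw : okW m w = true) :
    el w ∈ cl ((List.range m).map fun x => [x]) :=
  gword_mem _ _ fun x hx => Subgroup.subset_closure
    ⟨[x], List.mem_map.2 ⟨x, List.mem_range.2 (okW_iff.1 hw x hx), rfl⟩,
      by simp [gword_cons, gword_nil]⟩

theorem wordsSix_eq : Tab.wordsSix = (List.range 6).map fun x => [x] := by decide

theorem wordsFive_eq : Tab.wordsFive = (List.range 5).map fun x => [x] := by decide

theorem el_mem_MM {w : List ℕ} (hw : okW 6 w = true) : el w ∈ MM := by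
  rw [MM, wordsSix_eq]; exact el_mem_cl hw

theorem el_mem_JJ {w : List ℕ} (hw : okW 5 w = true) : el w ∈ JJ := by
  rw [JJ, wordsFive_eq]; exact el_mem_cl hw

theorem JJ_le_MM : JJ ≤ MM := by
  rw [JJ, MM, cl_five, cl_six]
  exact Subgroup.map_mono (sub_mono (by omega))

theorem MM_le_range : MM ≤ pi.range := fun x hx => by
  rw [MM, ← stab_zero] at hx
  exact (mem_pointStab.1 hx).1

theorem mem_MM_iff {g : P} : g ∈ MM ↔ g ∈ pi.range ∧ g P0 = P0 := by
  rw [MM, ← stab_zero, mem_pointStab]
  simp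

theorem mem_JJ_iff {g : P} : g ∈ JJ ↔ g ∈ MM ∧ g Suz.P1 = Suz.P1 := by
  rw [JJ, ← stab_one, mem_MM_iff, mem_pointStab]
  simp only [List.mem_cons, List.not_mem_nil, or_false, forall_eq_or_imp, forall_eq]
  tauto

theorem fix_of_runN {w : List ℕ} (hw : okW 7 w = true) (p : Pt) (h : runN w p = p) :
    el w p = p :=
  (el_apply_eq_iff hw p p).2 h

/-- two words agree at the six base points -/
noncomputable def eq6 (u v : List ℕ) : Bool :=
  allK (fun b => runN u b == runN v b) [0, 995, 47, 72, 76, 593]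

/-- two words agree at the last four base points -/
noncomputable def eq4 (u v : List ℕ) : Bool :=
  allK (fun b => runN u b == runN v b) [47, 72, 76, 593]

theorem inv_apply_eq {u v : List ℕ} (hu : okW 7 u = true) (hv : okW 7 v = true) (p : Pt)
    (h : runN u p = runN v p) : (el u)⁻¹ p = (el v)⁻¹ p :=
  Fin.ext (by rw [el_inv_val hu, el_inv_val hv, h])

theorem el_eq_of_base {u v : List ℕ} (hu : okW 7 u = true) (hv : okW 7 v = true)
    (h : ∀ p ∈ [Suz.P5, Suz.P4, Suz.P3, Suz.P2, Suz.P1, P0], runN u (p : Pt) = runN v (p : Pt)) :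
    el u = el v := by
  have := eq_one_of_fix (m := el v * (el u)⁻¹)
    (mul_mem (el_mem_range hv) (inv_mem (el_mem_range hu))) fun p hp => by
      rw [Equiv.Perm.mul_apply, inv_apply_eq hu hv p (h p hp)]
      simp
  exact (mul_inv_eq_one.1 this).symm

theorem el_eq_six {u v : List ℕ} (hu : okW 7 u = true) (hv : okW 7 v = true)
    (h : eq6 u v = true) : el u = el v := by
  simp only [eq6, Model.allK_iff, beq_iff_eq, List.mem_cons, List.not_mem_nil, or_false,
    forall_eq_or_imp, forall_eq] at h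
  obtain ⟨h0, h1, h2, h3, h4, h5⟩ := h
  refine el_eq_of_base hu hv ?_
  simp only [List.mem_cons, List.not_mem_nil, or_false, forall_eq_or_imp, forall_eq, pt_val]
  exact ⟨h5, h4, h3, h2, h1, h0⟩

theorem el_eq_four {u v : List ℕ} (hu : okW 5 u = true) (hv : okW 5 v = true)
    (h : eq4 u v = true) : el u = el v := by
  simp only [eq4, Model.allK_iff, beq_iff_eq, List.mem_cons, List.not_mem_nil, or_false,
    forall_eq_or_imp, forall_eq] at h
  obtain ⟨h2, h3, h4, h5⟩ := h
  have hu7 := okW_mono hu (by omega : 5 ≤ 7)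
  have hv7 := okW_mono hv (by omega : 5 ≤ 7)
  refine el_eq_of_base hu7 hv7 ?_
  have hfix : ∀ {w : List ℕ}, okW 5 w = true →
      runN w (P0 : Pt) = (P0 : Pt) ∧ runN w (Suz.P1 : Pt) = (Suz.P1 : Pt) := by
    intro w hw
    have hm := mem_JJ_iff.1 (el_mem_JJ hw)
    have hw7 := okW_mono hw (by omega : 5 ≤ 7)
    exact ⟨(el_apply_eq_iff hw7 _ _).1 (mem_MM_iff.1 hm.1).2, (el_apply_eq_iff hw7 _ _).1 hm.2⟩
  simp only [List.mem_cons, List.not_mem_nil, or_false, forall_eq_or_imp, forall_eq]
  exact ⟨h5, h4, h3, h2, (hfix hu).2.trans (hfix hv).2.symm, (hfix hu).1.trans (hfix hv).1.symm⟩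

/-- iterate of the action of a word -/
noncomputable def iterN (w : List ℕ) (n i : ℕ) : ℕ :=
  Nat.rec i (fun _ j => runN w j) n

theorem el_pow_inv_val {w : List ℕ} (hw : okW 7 w = true) (n : ℕ) (i : Pt) :
    ((((el w)⁻¹ ^ n) i : Pt) : ℕ) = iterN w n i := by
  induction n with
  | zero => rfl
  | succ n ih => rw [pow_succ', Equiv.Perm.mul_apply, el_inv_val hw, ih]; rfl

/-- a word has a moved point returning after `n` steps -/
noncomputable def cycleOK (n : ℕ) (w : List ℕ) (i : ℕ) : Bool :=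
  Nat.blt i 1782 && (iterN w n i == i) && !(runN w i == i)

theorem not_cycle {w : List ℕ} (hw : okW 7 w = true) {n i : ℕ} (hn : n.Prime)
    (h : cycleOK n w i = true) (H : Subgroup P) (hH : el w ∈ H) (hd : ¬ n ∣ Nat.card H) : False := by
  simp only [cycleOK, Bool.and_eq_true, Bool.not_eq_true', beq_eq_false_iff_ne, ne_eq, beq_iff_eq,
    Nat.blt, Nat.ble_eq] at h
  obtain ⟨⟨hi, hn'⟩, hne⟩ := h
  refine hne ?_
  set y := (el w)⁻¹
  have hy : y ∈ H := inv_mem hH
  have h1 : y ^ n ∈ MulAction.stabilizer P (⟨i, hi⟩ : Pt) :=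
    Fin.ext ((el_pow_inv_val hw n ⟨i, hi⟩).trans hn')
  have h2 : y ^ Nat.card H ∈ MulAction.stabilizer P (⟨i, hi⟩ : Pt) := by
    have he : (⟨y, hy⟩ : H) ^ Nat.card H = 1 := pow_card_eq_one'
    rw [show y ^ Nat.card H = 1 from congrArg Subtype.val he]
    exact one_mem _
  have h3 : y ∈ MulAction.stabilizer P (⟨i, hi⟩ : Pt) := by
    have hc : Nat.Coprime n (Nat.card H) := (Nat.Prime.coprime_iff_not_dvd hn).2 hd
    have e := Nat.gcd_eq_gcd_ab n (Nat.card H)
    rw [hc.gcd_eq_one] at e
    have : y = y ^ ((1 : ℕ) : ℤ) := by simp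
    rw [this, e, zpow_add, zpow_mul, zpow_mul, zpow_natCast, zpow_natCast]
    exact mul_mem (Subgroup.zpow_mem _ h1 _) (Subgroup.zpow_mem _ h2 _)
  exact (el_inv_val hw ⟨i, hi⟩).symm.trans (congrArg Fin.val (MulAction.mem_stabilizer_iff.1 h3))

end CfsgLib.SuzRankThree5
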